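import Mathlib
import Cfsg.Prelude.Def_LieRecognition
import Cfsg.Agent.Lib.RankOne.Basic

/-!
The distinguished involution, the inverted set `K` and centralisers of subsets of `D` in the
rank-one set-up.
-/

set_option autoImplicit false
set_option linter.style.haveILetI false
set_option linter.unusedSectionVars false
open Cfsg MulAction

namespace Cfsg.Agent.Lib.RankOne

section Factor

variable {M : Type*} [Group M] {t : M} {X : Subgroup M}

theorem inverted_iff (ht : t * t = 1) {z : M} :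
    z ∈ invertedBy X t ↔ z ∈ X ∧ t * z * t = z⁻¹ := by
  show z ∈ X ∧ t * z * t⁻¹ = z⁻¹ ↔ _
  rw [conj_eq t ht]

theorem exists_factor [Finite M] (ht : t * t = 1) (hodd : Odd (Nat.card X))
    (hn : ∀ x ∈ X, t * x * t⁻¹ ∈ X) {x : M} (hx : x ∈ X) :
    ∃ y z : M, y ∈ X ∧ y * t = t * y ∧ z ∈ invertedBy X t ∧ x = y * z := by
  set w := (t * x * t⁻¹)⁻¹ * x with hw
  have hwX : w ∈ X := X.mul_mem (X.inv_mem (hn x hx)) hx
  have hwo := orderOf_odd_of_mem hodd hwX
  have ti : t⁻¹ = t := inv_eq_of_mul_eq_one_right ht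
  have hwt : t * w * t⁻¹ = w⁻¹ := by
    simp only [hw, mul_inv_rev, inv_inv, ti, mul_assoc]
    rw [← mul_assoc t t, ht, one_mul]
  set z := sqrtOdd w with hz
  have hzt := sqrtOdd_inverted hwt
  rw [← hz] at hzt
  refine ⟨x * z⁻¹, z, X.mul_mem hx (X.inv_mem (sqrtOdd_mem hwX)), ?_,
    ⟨sqrtOdd_mem hwX, hzt⟩, by group⟩
  have e : t * (x * z⁻¹) * t⁻¹ = x * z⁻¹ := by
    calc t * (x * z⁻¹) * t⁻¹ = (t * x * t⁻¹) * (t * z * t⁻¹)⁻¹ := by group
      _ = t * x * t⁻¹ * z := by rw [hzt, inv_inv]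
      _ = t * x * t⁻¹ * (z * z) * z⁻¹ := by group
      _ = x * z⁻¹ := by rw [hz, sqrtOdd_mul_self hwo, hw, mul_inv_cancel_left]
  exact (mul_inv_eq_iff_eq_mul.mp e).symm

theorem factor_unique [Finite M] (hodd : Odd (Nat.card X)) {y y' z z' : M} (hy : y * t = t * y)
    (hy' : y' * t = t * y') (hz : z ∈ invertedBy X t) (hz' : z' ∈ invertedBy X t)
    (e : y * z = y' * z') : y = y' ∧ z = z' := by
  have key : ∀ {y z : M}, y * t = t * y → z ∈ invertedBy X t →
      (t * (y * z) * t⁻¹)⁻¹ * (y * z) = z * z := by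
    intro y z hy hz
    have : t * (y * z) * t⁻¹ = y * z⁻¹ := by
      rw [← mul_assoc, ← hy, mul_assoc y, mul_assoc y, hz.2]
    rw [this]; group
  have h := key hy hz
  rw [e, key hy' hz'] at h
  have hzz := sq_inj (orderOf_odd_of_mem hodd hz'.1) (orderOf_odd_of_mem hodd hz.1) h
  subst hzz
  exact ⟨mul_right_cancel e, rfl⟩

end Factor

variable {G Ω : Type*} [Group G] [MulAction G Ω] {a : Ω} {t : G} {Q : Subgroup G}
variable (hS : IsRankOneSetup G Ω a t Q)
include hS

theorem mem_K_iff {k : G} :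
    k ∈ invertedBy (twoPt a t) t ↔ k ∈ twoPt a t ∧ t * k * t = k⁻¹ := inverted_iff hS.mul_self

theorem swap_mem_K {u : G} (hu : u * u = 1) (hua : u • a = t • a) :
    t * u ∈ invertedBy (twoPt a t) t := by
  have hub : u • (t • a) = a := by rw [← hua, smul_smul, hu, one_smul]
  refine ⟨mem_twoPt.mpr ⟨?_, ?_⟩, ?_⟩
  · rw [mul_smul, hua, t_smul_base hS]
  · rw [mul_smul, hub]
  · rw [mul_inv_rev, inv_eq_of_mul_eq_one_right hu, inv_eq hS, tt_mul hS]

theorem K_mul_invol {k : G} (hk : k ∈ invertedBy (twoPt a t) t) :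
    t * k * (t * k) = 1 ∧ (t * k) • a = t • a := by
  obtain ⟨h1, h2⟩ := (mem_K_iff hS).mp hk
  exact ⟨by rw [← mul_assoc, h2, inv_mul_cancel], by rw [mul_smul, h1.1]⟩

variable [Finite G]

theorem centralizer_t_fix {c : Ω} (hc : t • c = c) {d : G} (hd : d * t = t * d) : d • c = c := by
  refine (fix_eq hS hS.ne_one hS.mul_self ?_ hc)
  rw [smul_smul, ← hd, mul_smul, hc]

theorem exists_structure : ∃ r s : G, r ∈ Q ∧ t • (r • (t • a)) = r • (t • a) ∧
    s ∈ involutionsIn (stabilizer G a : Set G) ∧ t * s * t = r⁻¹ * t * r := by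
  obtain ⟨c, hc, -⟩ := fix_unique hS hS.ne_one hS.mul_self
  have hca : c ≠ a := fun h => hS.not_mem (h ▸ hc)
  obtain ⟨r, hr, hrc⟩ := exists_q hS hca
  refine ⟨r, t * (r⁻¹ * t * r) * t, hr, by rw [hrc]; exact hc, ⟨?_, ?_, ?_⟩, ?_⟩
  · show (t * (r⁻¹ * t * r) * t) • a = a
    rw [mul_smul, mul_smul, mul_smul, mul_smul, hrc, hc, ← hrc, inv_smul_smul, t_smul_base hS]
  · intro h
    apply hS.ne_one
    have := congrArg (fun x => r * t * x * t * r⁻¹) h
    simpa [mul_assoc, hS.mul_self, tt_mul hS] using this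
  · simp only [mul_assoc, tt_mul hS, mul_inv_cancel_left, inv_mul_cancel_left, hS.mul_self]
  · simp only [mul_assoc, tt_mul hS, hS.mul_self, mul_one]

theorem structure_fix {s r : G} (hs : s • a = a) (h : t * s * t = r⁻¹ * t * r) :
    t • (r • (t • a)) = r • (t • a) := by
  have e : (t * s * t) • (t • a) = t • a := by rw [mul_smul, mul_smul, t_smul_base hS, hs]
  rw [h, mul_smul, mul_smul, inv_smul_eq_iff] at e
  exact e

theorem structure_unique {s r s' r' : G} (hs : s • a = a) (hr : r ∈ Q)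
    (h : t * s * t = r⁻¹ * t * r) (hs' : s' • a = a) (hr' : r' ∈ Q)
    (h' : t * s' * t = r'⁻¹ * t * r') : s = s' ∧ r = r' := by
  have e := fix_eq hS hS.ne_one hS.mul_self (structure_fix hS hs h) (structure_fix hS hs' h')
  have hrr := q_ext hS hr hr' (base_ne hS) e
  subst hrr
  refine ⟨?_, rfl⟩
  have h'' := congrArg (fun x => t * x * t) (h.trans h'.symm)
  simpa [mul_assoc, tt_mul hS, hS.mul_self] using h''

/-- `C_D(t) = C_D(s)` for the distinguished involution `s`. -/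
theorem commute_iff {s r : G} (hs : s • a = a) (hr : r ∈ Q) (h : t * s * t = r⁻¹ * t * r) {d : G}
    (hd : d ∈ twoPt a t) : d * t = t * d ↔ d * s = s * d := by
  have hc := structure_fix hS hs h
  have hs' : s = t * (r⁻¹ * t * r) * t := by simp [← h, mul_assoc, tt_mul hS, hS.mul_self]
  have key : ∀ {d : G}, d ∈ twoPt a t → d * t = t * d → d * r = r * d := by
    intro d hd hdt
    have := q_ext hS (hS.conj_mem d hd.1 r hr) hr (base_ne hS)
      (by rw [mul_smul, mul_smul, inv_smul_eq_of_fix hd.2, centralizer_t_fix hS hc hdt])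
    exact mul_inv_eq_iff_eq_mul.mp this
  constructor
  · intro hdt
    have c1 : Commute d t := hdt
    have c2 : Commute d r := key hd hdt
    rw [hs']
    exact (c1.mul_right ((c2.inv_right.mul_right c1).mul_right c2)).mul_right c1
  · intro hds
    set e := t * d * t with he
    have het : e * (r⁻¹ * t * r) = r⁻¹ * t * r * e := by
      rw [← h, he]
      simp only [mul_assoc, tt_mul hS]
      rw [← mul_assoc d s, hds, mul_assoc]
    set f := r * e * r⁻¹ with hf
    have hft : f * t = t * f := by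
      calc f * t = r * (e * (r⁻¹ * t * r)) * r⁻¹ := by rw [hf]; group
        _ = t * f := by rw [het, hf]; group
    have heD := conj_t_mem hS hd
    rw [← he] at heD
    have hfa : f • a = a := by
      rw [hf, mul_smul, mul_smul, inv_smul_eq_of_fix (fix_of_mem_Q hS hr), heD.1,
        fix_of_mem_Q hS hr]
    have hfb : f • (t • a) = t • a := by rw [smul_smul, hft, mul_smul, hfa]
    have hfr : f * r = r * f := key (mem_twoPt.mpr ⟨hfa, hfb⟩) hft
    have hef : e = f := by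
      calc e = r⁻¹ * (f * r) := by rw [hf]; group
        _ = f := by rw [hfr, inv_mul_cancel_left]
    have hdd : d = t * e * t := by simp [he, mul_assoc, tt_mul hS, hS.mul_self]
    have : d = e := by
      rw [hdd, hef, ← hft, mul_assoc, hS.mul_self, mul_one]
    rw [this, hef, hft]

theorem card_K_eq :
    Nat.card (invertedBy (twoPt a t) t) =
      Nat.card (involutionsIn (stabilizer G a : Set G)) := by
  haveI := finite_set hS
  have hr : ∀ c : {c : Ω // c ≠ a}, ∃ q ∈ Q, q • (t • a) = (c : Ω) := fun c => exists_q hS c.2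
  choose r hrQ hrc using hr
  have hg : ∀ c : {c : Ω // c ≠ a}, ∃ g : G, g • a = (c : Ω) := fun c => exists_move hS a c
  choose g hgc using hg
  have e1 : Nat.card ({c : Ω // c ≠ a} × invertedBy (twoPt a t) t) =
      Nat.card {u : G // u * u = 1 ∧ u • a ≠ a} := by
    refine Nat.card_eq_of_bijective (fun p => ⟨r p.1 * (t * p.2) * (r p.1)⁻¹, ?_, ?_⟩)
      ⟨fun p p' hpp => ?_, fun u => ?_⟩
    · simp only [mul_assoc, inv_mul_cancel_left]
      rw [← mul_assoc (p.2 : G) t, ← mul_assoc t (p.2 * t), ← mul_assoc ((t * (p.2 * t))),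
        ← mul_assoc t p.2 t, ((mem_K_iff hS).mp p.2.2).2, inv_mul_cancel, one_mul, mul_inv_cancel]
    · rw [mul_smul, mul_smul, inv_smul_eq_of_fix (fix_of_mem_Q hS (hrQ _)),
        (K_mul_invol hS p.2.2).2, hrc]
      exact p.1.2
    · have h := congrArg Subtype.val hpp
      simp only at h
      have hc : p.1 = p'.1 := by
        apply Subtype.ext
        have := congrArg (fun x : G => x • a) h
        simpa only [mul_smul, inv_smul_eq_of_fix (fix_of_mem_Q hS (hrQ _)),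
          mem_stabilizer_iff.mp p.2.2.1.1, mem_stabilizer_iff.mp p'.2.2.1.1, hrc] using this
      refine Prod.ext hc (Subtype.ext ?_)
      rw [hc] at h
      exact mul_left_cancel (mul_left_cancel (mul_right_cancel h))
    · obtain ⟨u, hu, hua⟩ := u
      let c : {c : Ω // c ≠ a} := ⟨u • a, hua⟩
      have hw : (r c)⁻¹ * u * r c * ((r c)⁻¹ * u * r c) = 1 := by
        simp only [mul_assoc, mul_inv_cancel_left]
        rw [← mul_assoc u u, hu, one_mul, inv_mul_cancel]
      have hwa : ((r c)⁻¹ * u * r c) • a = t • a := by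
        rw [mul_smul, mul_smul, fix_of_mem_Q hS (hrQ c), inv_smul_eq_iff, hrc]
      exact ⟨(c, ⟨_, swap_mem_K hS hw hwa⟩), Subtype.ext (by
        show r c * (t * (t * ((r c)⁻¹ * u * r c))) * (r c)⁻¹ = u
        rw [tt_mul hS]; group)⟩
  have e2 : Nat.card ({c : Ω // c ≠ a} × involutionsIn (stabilizer G a : Set G)) =
      Nat.card {u : G // u * u = 1 ∧ u • a ≠ a} := by
    have fixes : ∀ (c : {c : Ω // c ≠ a}) {s : G}, s • a = a →
        (g c * s * (g c)⁻¹) • (c : Ω) = c := fun c s hs => by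
      rw [mul_smul, mul_smul, ← hgc c, inv_smul_smul, hs]
    have isinv : ∀ (c : {c : Ω // c ≠ a}) {s : G}, s * s = 1 →
        (g c * s * (g c)⁻¹) * (g c * s * (g c)⁻¹) = 1 := fun c s hs => by
      simp only [mul_assoc, inv_mul_cancel_left]
      rw [← mul_assoc s s, hs, one_mul, mul_inv_cancel]
    refine Nat.card_eq_of_bijective (fun p => ⟨g p.1 * p.2 * (g p.1)⁻¹, isinv _ p.2.2.2.2, ?_⟩)
      ⟨fun p p' hpp => ?_, fun u => ?_⟩
    · intro h
      exact p.1.2 (fix_eq hS (fun h1 => p.2.2.2.1 (conj_eq_one_iff.mp h1)) (isinv _ p.2.2.2.2)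
        (fixes _ p.2.2.1) h)
    · have h := congrArg Subtype.val hpp
      simp only at h
      have hc : p.1 = p'.1 := by
        refine Subtype.ext (fix_eq hS (fun h1 => p.2.2.2.1 (conj_eq_one_iff.mp h1))
          (isinv _ p.2.2.2.2) (fixes _ p.2.2.1) ?_)
        rw [h]; exact fixes _ p'.2.2.1
      refine Prod.ext hc (Subtype.ext ?_)
      rw [hc] at h
      exact mul_left_cancel (mul_right_cancel h)
    · obtain ⟨u, hu, hua⟩ := u
      have hu1 : u ≠ 1 := fun h => hua (by rw [h, one_smul])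
      obtain ⟨c, hc, -⟩ := fix_unique hS hu1 hu
      let c' : {c : Ω // c ≠ a} := ⟨c, fun h => hua (h ▸ hc)⟩
      refine ⟨(c', ⟨(g c')⁻¹ * u * g c', ⟨?_, ?_, ?_⟩⟩), Subtype.ext (by simp [mul_assoc])⟩
      · show ((g c')⁻¹ * u * g c') • a = a
        rw [mul_smul, mul_smul, hgc, hc, inv_smul_eq_iff, hgc]
      · intro h
        exact hu1 (conj_eq_one_iff.mp (show (g c')⁻¹ * u * ((g c')⁻¹)⁻¹ = 1 by rwa [inv_inv]))
      · simp only [mul_assoc, mul_inv_cancel_left]
        rw [← mul_assoc u u, hu, one_mul, inv_mul_cancel]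
  rw [Nat.card_prod] at e1 e2
  haveI : Nonempty {c : Ω // c ≠ a} := ⟨⟨t • a, base_ne hS⟩⟩
  exact Nat.eq_of_mul_eq_mul_left Nat.card_pos (e1.trans e2.symm)

theorem K_transitive {s s' : G} (hs : s ∈ involutionsIn (stabilizer G a : Set G))
    (hs' : s' ∈ involutionsIn (stabilizer G a : Set G)) :
    ∃ k ∈ invertedBy (twoPt a t) t, k⁻¹ * s * k = s' := by
  obtain ⟨r, s0, hr, -, hs0, he⟩ := exists_structure hS
  have ok : ∀ {x : G}, x ∈ involutionsIn (stabilizer G a : Set G) →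
      ∀ {k : G}, k ∈ invertedBy (twoPt a t) t →
      k⁻¹ * x * k ∈ involutionsIn (stabilizer G a : Set G) := by
    intro x hx k hk
    refine ⟨mul_mem (mul_mem (inv_mem hk.1.1) hx.1) hk.1.1, ?_, ?_⟩
    · intro h
      exact hx.2.1 (conj_eq_one_iff.mp (show k⁻¹ * x * (k⁻¹)⁻¹ = 1 by rwa [inv_inv]))
    · simp only [mul_assoc, mul_inv_cancel_left]
      rw [← mul_assoc x x, hx.2.2, one_mul, inv_mul_cancel]
  have surj : ∀ m ∈ invertedBy (twoPt a t) t,
      ∀ y ∈ involutionsIn (stabilizer G a : Set G),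
      ∃ k ∈ invertedBy (twoPt a t) t, k⁻¹ * (m⁻¹ * s0 * m) * k = y := by
    intro m hm y hy
    let F : invertedBy (twoPt a t) t → involutionsIn (stabilizer G a : Set G) :=
      fun k => ⟨(k : G)⁻¹ * (m⁻¹ * s0 * m) * k, ok (ok hs0 hm) k.2⟩
    have inj : Function.Injective F := by
      intro k1 k2 h
      have h' := congrArg Subtype.val h
      simp only [F] at h'
      obtain ⟨m1, m2⟩ := (mem_K_iff hS).mp hm
      obtain ⟨p1, p2⟩ := (mem_K_iff hS).mp k1.2
      obtain ⟨q1, q2⟩ := (mem_K_iff hS).mp k2.2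
      set v := m * k2 * (m * k1)⁻¹ with hv
      have hvD : v ∈ twoPt a t := mul_mem (mul_mem m1 q1) (inv_mem (mul_mem m1 p1))
      have hvs : v * s0 = s0 * v := by
        rw [hv]
        calc m * k2 * (m * k1)⁻¹ * s0
            = m * k2 * ((k1 : G)⁻¹ * (m⁻¹ * s0 * m) * k1) * (m * k1)⁻¹ := by group
          _ = s0 * (m * k2 * (m * k1)⁻¹) := by rw [h']; group
      have hvt := (commute_iff hS hs0.1 hr he hvD).mpr hvs
      have hmk : ∀ {k : G}, t * k * t = k⁻¹ →
          (t * (m * k) * t)⁻¹ * (m * k) = k * (m * m) * k := by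
        intro k hk
        have : t * (m * k) * t = m⁻¹ * k⁻¹ := by
          rw [← m2, ← hk]; simp only [mul_assoc, tt_mul hS]
        rw [this]; group
      have h3 : (t * (m * k2) * t)⁻¹ * (m * k2) = (t * (m * k1) * t)⁻¹ * (m * k1) := by
        have e3 : m * k2 = v * (m * k1) := by rw [hv]; group
        rw [e3, ← mul_assoc t v, ← hvt]; group
      rw [hmk q2, hmk p2] at h3
      have h4 : (m * k2 * m) * (m * k2 * m) = (m * k1 * m) * (m * k1 * m) := by
        calc (m * k2 * m) * (m * k2 * m) = m * ((k2 : G) * (m * m) * k2) * m := by group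
          _ = m * ((k1 : G) * (m * m) * k1) * m := by rw [h3]
          _ = (m * k1 * m) * (m * k1 * m) := by group
      have := sq_inj (orderOf_odd_of_mem hS.odd_card (mul_mem (mul_mem m1 q1) m1))
        (orderOf_odd_of_mem hS.odd_card (mul_mem (mul_mem m1 p1) m1)) h4
      exact Subtype.ext (mul_left_cancel (mul_right_cancel this)).symm
    obtain ⟨k, hk⟩ :=
      ((Nat.bijective_iff_injective_and_card F).mpr ⟨inj, card_K_eq hS⟩).2 ⟨y, hy⟩
    exact ⟨k, k.2, congrArg Subtype.val hk⟩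
  obtain ⟨m, hm, hms⟩ := surj 1 ⟨one_mem _, by simp⟩ s hs
  simp only [inv_one, one_mul, mul_one] at hms
  subst hms
  exact surj m hm s' hs'

theorem centralizer_move {X : Set G} {p q q' : Ω} (hp : ∀ x ∈ X, x • p = p)
    (hq : ∀ x ∈ X, x • q = q) (hq' : ∀ x ∈ X, x • q' = q') (hqp : q ≠ p) (hqp' : q' ≠ p) :
    ∃ g ∈ Subgroup.centralizer X, g • p = p ∧ g • q = q' := by
  obtain ⟨h, hh⟩ := exists_move hS p a
  have hne : ∀ {y : Ω}, y ≠ p → h • y ≠ a := fun hy h' =>
    hy (MulAction.injective h (h'.trans hh.symm))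
  obtain ⟨w, hw, -⟩ := existsUnique_q hS (hne hqp) (hne hqp')
  have hfix : (h⁻¹ * w * h) • p = p := by
    rw [mul_smul, mul_smul, hh, fix_of_mem_Q hS w.2, ← hh, inv_smul_smul]
  refine ⟨h⁻¹ * w * h, Subgroup.mem_centralizer_iff.mpr fun x hx => ?_, hfix, ?_⟩
  · have hxa : (h * x * h⁻¹) • a = a := by
      rw [mul_smul, mul_smul, ← hh, inv_smul_smul, hp x hx]
    have f1 : (h * x * h⁻¹) • (h • q) = h • q := by rw [mul_smul, mul_smul, inv_smul_smul, hq x hx]
    have f2 : (h * x * h⁻¹) • (h • q') = h • q' := by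
      rw [mul_smul, mul_smul, inv_smul_smul, hq' x hx]
    have key := q_ext hS (hS.conj_mem _ hxa _ w.2) w.2 (hne hqp) (by
      rw [mul_smul, mul_smul, inv_smul_eq_of_fix f1, hw, f2])
    have := mul_inv_eq_iff_eq_mul.mp key
    calc x * (h⁻¹ * w * h) = h⁻¹ * (h * x * h⁻¹ * w) * h := by group
      _ = h⁻¹ * w * h * x := by rw [this]; group
  · rw [mul_smul, mul_smul, hw, inv_smul_smul]

theorem centralizer_two_trans {X : Set G}
    (h3 : ∃ b c d : Ω, b ≠ c ∧ b ≠ d ∧ c ≠ d ∧ ∀ x ∈ X, x • b = b ∧ x • c = c ∧ x • d = d)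
    {b₁ b₂ c₁ c₂ : Ω} (hb₁ : ∀ x ∈ X, x • b₁ = b₁) (hb₂ : ∀ x ∈ X, x • b₂ = b₂)
    (hc₁ : ∀ x ∈ X, x • c₁ = c₁) (hc₂ : ∀ x ∈ X, x • c₂ = c₂) (hb : b₁ ≠ b₂) (hc : c₁ ≠ c₂) :
    ∃ g ∈ Subgroup.centralizer X, g • b₁ = c₁ ∧ g • b₂ = c₂ := by
  obtain ⟨b, c, d, hbc, hbd, hcd, hf⟩ := h3
  obtain ⟨p, hp, hp1, hp2⟩ : ∃ p, (∀ x ∈ X, x • p = p) ∧ b₁ ≠ p ∧ c₁ ≠ p := by
    by_cases h1 : b₁ ≠ b ∧ c₁ ≠ b
    · exact ⟨b, fun x hx => (hf x hx).1, h1⟩
    by_cases h2 : b₁ ≠ c ∧ c₁ ≠ c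
    · exact ⟨c, fun x hx => (hf x hx).2.1, h2⟩
    refine ⟨d, fun x hx => (hf x hx).2.2, ?_, ?_⟩ <;>
    · rw [not_and_or, not_not, not_not] at h1 h2
      rcases h1 with h1 | h1 <;> rcases h2 with h2 | h2 <;> simp_all
  obtain ⟨g, hg, -, hg1⟩ := centralizer_move hS hp hb₁ hc₁ hp1 hp2
  have hgb : ∀ x ∈ X, x • (g • b₂) = g • b₂ := fun x hx => by
    rw [smul_smul, Subgroup.mem_centralizer_iff.mp hg x hx, mul_smul, hb₂ x hx]
  obtain ⟨g', hg', hg'1, hg'2⟩ := centralizer_move hS hc₁ hgb hc₂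
    (fun h => hb (MulAction.injective g (hg1.trans h.symm))) (Ne.symm hc)
  exact ⟨g' * g, mul_mem hg' hg, by rw [mul_smul, hg1, hg'1], by rw [mul_smul, hg'2]⟩

/-- An involution of `C(X)` interchanging `a` and `t • a`. -/
theorem centralizer_swap {X : Set G} (hX : X ⊆ (twoPt a t : Set G))
    (h3 : ∃ b c d : Ω, b ≠ c ∧ b ≠ d ∧ c ≠ d ∧ ∀ x ∈ X, x • b = b ∧ x • c = c ∧ x • d = d) :
    ∃ w ∈ Subgroup.centralizer X, w * w = 1 ∧ w • a = t • a ∧ w • (t • a) = a := by
  obtain ⟨g, hg, hga, hgb⟩ := centralizer_two_trans hS h3 (fun x hx => (hX hx).1)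
    (fun x hx => (hX hx).2) (fun x hx => (hX hx).2) (fun x hx => (hX hx).1) (base_ne hS).symm
    (base_ne hS)
  obtain ⟨k, m, hm, hkm⟩ := Nat.exists_eq_two_pow_mul_odd (orderOf_pos g).ne'
  obtain ⟨i, rfl⟩ := hm
  have hw : ∀ j : ℕ, (g * g) ^ j • a = a ∧ (g * g) ^ j • (t • a) = t • a := by
    intro j
    induction j with
    | zero => simp
    | succ j ih =>
      refine ⟨?_, ?_⟩
      · rw [pow_succ, mul_smul, mul_smul, hga, hgb, ih.1]
      · rw [pow_succ, mul_smul, mul_smul, hgb, hga, ih.2]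
  set w := g ^ (2 * i + 1) with hwdef
  have hwg : w = (g * g) ^ i * g := by rw [hwdef, pow_succ, pow_mul, pow_two]
  have hwa : w • a = t • a := by rw [hwg, mul_smul, hga, (hw i).2]
  have hwb : w • (t • a) = a := by rw [hwg, mul_smul, hgb, (hw i).1]
  have hw2 : w ^ 2 ^ k = 1 := by rw [hwdef, ← pow_mul, mul_comm, ← hkm, pow_orderOf_eq_one]
  refine ⟨w, pow_mem hg _, ?_, hwa, hwb⟩
  obtain ⟨h, hh⟩ := exists_conj_mem_Q hS hw2
  have hmem : h * (w * w) * h⁻¹ ∈ Q := by simpa [mul_assoc] using Q.mul_mem hh hh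
  have hfa : (h * (w * w) * h⁻¹) • (h • a) = h • a := by
    rw [mul_smul, mul_smul, inv_smul_smul, mul_smul, hwa, hwb]
  have hfb : (h * (w * w) * h⁻¹) • (h • t • a) = h • t • a := by
    rw [mul_smul, mul_smul, inv_smul_smul, mul_smul, hwb, hwa]
  by_cases hha : h • a = a
  · exact conj_eq_one_iff.mp (eq_one_of_fix hS hmem
      (fun h' => base_ne hS (MulAction.injective h (h'.trans hha.symm))) hfb)
  · exact conj_eq_one_iff.mp (eq_one_of_fix hS hmem hha hfa)

/-- An element of `D` with a third fixed point inverted by a swapping involution is trivial. -/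
theorem eq_one_of_inverted {u x : G} (hu : u * u = 1) (hua : u • a = t • a) (hx : x ∈ twoPt a t)
    (hi : u * x * u⁻¹ = x⁻¹) {c : Ω} (hca : c ≠ a) (hcb : c ≠ t • a) (hc : x • c = c) :
    x = 1 := by
  obtain ⟨w, hwX, hw, hwa, hwb⟩ := centralizer_swap hS (X := {x}) (by simpa using hx)
    ⟨a, t • a, c, (base_ne hS).symm, hca.symm, hcb.symm,
      fun y hy => by rw [Set.mem_singleton_iff.mp hy]; exact ⟨hx.1, hx.2, hc⟩⟩
  have hub : u • (t • a) = a := by rw [← hua, smul_smul, hu, one_smul]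
  have hwx : Commute w x := (Subgroup.mem_centralizer_iff.mp hwX x rfl).symm
  set d := u * w
  have hd : d ∈ twoPt a t :=
    mem_twoPt.mpr ⟨by rw [mul_smul, hwa, hub], by rw [mul_smul, hwb, hua]⟩
  have hdx : d * x * d⁻¹ = x⁻¹ := by
    show u * w * x * (u * w)⁻¹ = x⁻¹
    calc u * w * x * (u * w)⁻¹ = u * (w * x * w⁻¹) * u⁻¹ := by group
      _ = x⁻¹ := by rw [hwx.eq, mul_inv_cancel_right, hi]
  have hd2 : Commute x (d * d) := by
    have : d * d * x * (d * d)⁻¹ = x := by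
      calc d * d * x * (d * d)⁻¹ = d * (d * x * d⁻¹) * d⁻¹ := by group
        _ = d * x⁻¹ * d⁻¹ := by rw [hdx]
        _ = (d * x * d⁻¹)⁻¹ := by group
        _ = x := by rw [hdx, inv_inv]
    exact (mul_inv_eq_iff_eq_mul.mp this).symm
  have := (commute_of_commute_sq (orderOf_odd_of_mem hS.odd_card hd) hd2).symm
  rw [this.eq, mul_inv_cancel_right] at hdx
  exact eq_one_of_mul_self (orderOf_odd_of_mem hS.odd_card hx) (mul_eq_one_iff_eq_inv.mpr hdx)

/-- The same statement for an arbitrary pair of interchanged points. -/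
theorem eq_one_of_inverted' {u x : G} (hu : u * u = 1) {p c : Ω} (hup : u • p ≠ p)
    (hxp : x • p = p) (hxq : x • (u • p) = u • p) (hi : u * x * u⁻¹ = x⁻¹)
    (hcp : c ≠ p) (hcq : c ≠ u • p) (hc : x • c = c) : x = 1 := by
  obtain ⟨h, h1, h2⟩ := exists_map_pair hS hup.symm (base_ne hS).symm
  have := eq_one_of_inverted hS (u := h * u * h⁻¹) (x := h * x * h⁻¹) (c := h • c)
    (by simp only [mul_assoc, inv_mul_cancel_left]; rw [← mul_assoc u u, hu, one_mul, mul_inv_cancel])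
    (by rw [mul_smul, mul_smul, inv_smul_eq_iff.mpr h1.symm, h2])
    (mem_twoPt.mpr ⟨by rw [mul_smul, mul_smul, inv_smul_eq_iff.mpr h1.symm, hxp, h1],
      by rw [mul_smul, mul_smul, inv_smul_eq_iff.mpr h2.symm, hxq, h2]⟩)
    (by rw [show h * u * h⁻¹ * (h * x * h⁻¹) * (h * u * h⁻¹)⁻¹ = h * (u * x * u⁻¹) * h⁻¹ by group,
      hi]; group)
    (fun h' => hcp (MulAction.injective h (h'.trans h1.symm)))
    (fun h' => hcq (MulAction.injective h (h'.trans h2.symm)))
    (by rw [mul_smul, mul_smul, inv_smul_smul, hc])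
  exact conj_eq_one_iff.mp this

end Cfsg.Agent.Lib.RankOne
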