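import Mathlib
import Cfsg.Agent.S0065
import Cfsg.Agent.Lib.RankOne.Structure

/-!
Consequences of the nilpotency of `Q` in the rank-one set-up. Thompson's theorem on fixed-point-free
automorphisms of prime order enters as a hypothesis on `Q`.
-/

set_option autoImplicit false
set_option linter.style.haveILetI false
set_option linter.unusedSectionVars false
open Cfsg MulAction

namespace Cfsg.Agent.Lib.RankOne

variable {G Ω : Type*} [Group G] [Finite G] [MulAction G Ω] {a : Ω} {t : G} {Q : Subgroup G}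
variable (hS : IsRankOneSetup G Ω a t Q)
include hS

theorem conj_invol_stab {x : G} (hx1 : x ≠ 1) (hx : x * x = 1) {g : G} {p : Ω} (hp : x • p = p)
    (hg : g • p = a) : g * x * g⁻¹ ∈ involutionsIn (stabilizer G a : Set G) := by
  refine ⟨?_, fun h => hx1 (conj_eq_one_iff.mp h), ?_⟩
  · show (g * x * g⁻¹) • a = a
    rw [mul_smul, mul_smul, inv_smul_eq_iff.mpr hg.symm, hp, hg]
  · simp only [mul_assoc, inv_mul_cancel_left]
    rw [← mul_assoc x x, hx, one_mul, mul_inv_cancel]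

theorem exists_ne_one_K
    (h2 : ∃ x y : G, x ≠ 1 ∧ y ≠ 1 ∧ x ≠ y ∧ x * x = 1 ∧ y * y = 1 ∧ x * y = y * x) :
    ∃ k ∈ invertedBy (twoPt a t) t, k ≠ 1 := by
  obtain ⟨x, y, hx1, hy1, hxy, hx, hy, hc⟩ := h2
  obtain ⟨p, hp, -⟩ := fix_unique hS hx1 hx
  have hyp : y • p = p := fix_eq hS hx1 hx (by rw [smul_smul, hc, mul_smul, hp]) hp
  obtain ⟨g, hg⟩ := exists_move hS p a
  obtain ⟨k, hk, he⟩ := K_transitive hS (conj_invol_stab hS hx1 hx hp hg)
    (conj_invol_stab hS hy1 hy hyp hg)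
  refine ⟨k, hk, fun h => hxy ?_⟩
  rw [h, inv_one, one_mul, mul_one] at he
  exact mul_left_cancel (mul_right_cancel he)

theorem fpf_of_inverted {x : G} (hx : x ∈ invertedBy (twoPt a t) t) (hx1 : x ≠ 1) {q : G}
    (hq : q ∈ Q) (hc : q * x = x * q) : q = 1 := by
  by_contra hq1
  refine hx1 (eq_one_of_inverted hS hS.mul_self rfl hx.1 hx.2 (c := q • (t • a))
    (fun h => base_ne hS ?_) (fun h => hq1 (eq_one_of_fix_base hS hq h)) ?_)
  · rwa [← eq_inv_smul_iff, inv_smul_eq_of_fix (fix_of_mem_Q hS hq)] at h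
  · rw [smul_smul, ← hc, mul_smul, mem_stabilizer_iff.mp hx.1.2]

theorem nilpotent_Q
    (T : ∀ φ : Q ≃* Q, MonoidHom.FixedPointFree (φ : Q →* Q) → ∀ p : ℕ, p.Prime →
      orderOf φ = p → Group.IsNilpotent Q)
    (h2 : ∃ x y : G, x ≠ 1 ∧ y ≠ 1 ∧ x ≠ y ∧ x * x = 1 ∧ y * y = 1 ∧ x * y = y * x) :
    Group.IsNilpotent Q := by
  obtain ⟨k, hk, hk1⟩ := exists_ne_one_K hS h2
  obtain ⟨p, hp, hpd⟩ := Nat.exists_prime_and_dvd (fun h => hk1 (orderOf_eq_one_iff.mp h))
  obtain ⟨j, hj⟩ := hpd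
  have hz : k ^ j ∈ invertedBy (twoPt a t) t :=
    ⟨pow_mem hk.1 j, by rw [← conj_pow, hk.2, inv_pow]⟩
  have hzo : orderOf (k ^ j) = p := by
    have hpos := orderOf_pos k
    rw [orderOf_pow_of_dvd (by rintro rfl; simp [hj] at hpos) ⟨p, by rw [hj, mul_comm]⟩, hj,
      Nat.mul_div_cancel _ (Nat.pos_of_ne_zero (by rintro rfl; simp [hj] at hpos))]
  have hz1 : k ^ j ≠ 1 := fun h => hp.one_lt.ne' (by rw [← hzo, h, orderOf_one])
  generalize k ^ j = z at hz hzo hz1
  have hzi : ∀ q ∈ Q, z⁻¹ * q * z ∈ Q := fun q hq => by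
    simpa using hS.conj_mem z⁻¹ (inv_mem hz.1.1) q hq
  let φ : MulAut Q :=
    { toFun := fun q => ⟨z * q * z⁻¹, hS.conj_mem z hz.1.1 q q.2⟩
      invFun := fun q => ⟨z⁻¹ * q * z, hzi q q.2⟩
      left_inv := fun q => Subtype.ext (by simp [mul_assoc])
      right_inv := fun q => Subtype.ext (by simp [mul_assoc])
      map_mul' := fun q r => Subtype.ext (by simp [mul_assoc]) }
  have hfix : ∀ q : Q, φ q = q → q = 1 := fun q h => Subtype.ext
    (fpf_of_inverted hS hz hz1 q.2 (mul_inv_eq_iff_eq_mul.mp (congrArg Subtype.val h)).symm)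
  have hpow : ∀ (m : ℕ) (q : Q), ((φ ^ m) q : G) = z ^ m * q * (z ^ m)⁻¹ := by
    intro m
    induction m with
    | zero => simp
    | succ m ih =>
      intro q
      rw [pow_succ', MulAut.mul_apply]
      show z * ((φ ^ m) q : G) * z⁻¹ = _
      rw [ih, pow_succ']; group
  obtain ⟨s, hs, hs1, -⟩ := exists_invol_Q hS
  refine T φ hfix p hp (@orderOf_eq_prime _ _ φ p ⟨hp⟩ ?_ fun h => hs1 ?_)
  · refine MulEquiv.ext fun q => Subtype.ext ?_
    rw [hpow, ← hzo, pow_orderOf_eq_one, one_mul, inv_one, mul_one]; rfl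
  · exact congrArg Subtype.val (hfix ⟨s, hs⟩ (by rw [h]; rfl))

theorem invol_central [Group.IsNilpotent Q] {s : G}
    (hs : s ∈ involutionsIn (stabilizer G a : Set G)) {x : G} (hx : x ∈ Q) : s * x = x * s := by
  haveI : Fact (Nat.Prime 2) := ⟨Nat.prime_two⟩
  obtain ⟨P⟩ : Nonempty (Sylow 2 Q) := inferInstance
  have hne := S0065.inf_center_ne_bot (N := (P : Subgroup Q)) inferInstance
    (P.ne_bot_of_dvd_card hS.even_card.two_dvd)
  haveI : Nontrivial ↥((P : Subgroup Q) ⊓ Subgroup.center Q) :=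
    (Subgroup.nontrivial_iff_ne_bot _).mpr hne
  obtain ⟨n, hn, hcard⟩ := (P.2.to_le inf_le_left :
    IsPGroup 2 ↥((P : Subgroup Q) ⊓ Subgroup.center Q)).nontrivial_iff_card.mp inferInstance
  obtain ⟨c, hc⟩ := exists_prime_orderOf_dvd_card'
    (G := ↥((P : Subgroup Q) ⊓ Subgroup.center Q)) 2 (hcard ▸ dvd_pow_self 2 hn.ne')
  have hc2 : ((c : Q) : G) * ((c : Q) : G) = 1 := by
    have := pow_orderOf_eq_one c
    rw [hc, pow_two] at this
    exact congrArg Subtype.val (congrArg Subtype.val this)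
  have hc1 : ((c : Q) : G) ≠ 1 := fun h => by
    rw [OneMemClass.coe_eq_one, OneMemClass.coe_eq_one] at h
    simp [h] at hc
  obtain ⟨k, hk, rfl⟩ := K_transitive hS (s := ((c : Q) : G))
    ⟨hS.le (c : Q).2, hc1, hc2⟩ hs
  have hx' := hS.conj_mem k hk.1.1 x hx
  have hcc : ((c : Q) : G) * (k * x * k⁻¹) = k * x * k⁻¹ * ((c : Q) : G) :=
    (congrArg Subtype.val (Subgroup.mem_center_iff.mp c.2.2 ⟨_, hx'⟩)).symm
  calc k⁻¹ * ((c : Q) : G) * k * x = k⁻¹ * (((c : Q) : G) * (k * x * k⁻¹)) * k := by group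
    _ = x * (k⁻¹ * ((c : Q) : G) * k) := by rw [hcc]; group

theorem invol_mul [Group.IsNilpotent Q] {s s' : G}
    (hs : s ∈ involutionsIn (stabilizer G a : Set G))
    (hs' : s' ∈ involutionsIn (stabilizer G a : Set G)) : s * s' * (s * s') = 1 := by
  have := invol_central hS hs (mem_Q_of_invol hS hs'.1 hs'.2.2)
  rw [mul_assoc, ← mul_assoc s' s s', ← this, mul_assoc, hs'.2.2, mul_one, hs.2.2]

/-- A strongly real element of order greater than two: normal form and odd centraliser. -/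
theorem strongly_real [Group.IsNilpotent Q] {u v : G} (hu1 : u ≠ 1) (hu : u * u = 1) (hv1 : v ≠ 1)
    (hv : v * v = 1) (hx : u * v * (u * v) ≠ 1) :
    (∃ g : G, ∃ u' ∈ involutionsIn (stabilizer G a : Set G), g * (u * v) * g⁻¹ = u' * t) ∧
      Odd (Nat.card ↥(Subgroup.centralizer {u * v})) := by
  obtain ⟨p, hp, -⟩ := fix_unique hS hu1 hu
  obtain ⟨q, hq, -⟩ := fix_unique hS hv1 hv
  have hpq : p ≠ q := by
    rintro rfl
    obtain ⟨g, hg⟩ := exists_move hS p a
    have h := invol_mul hS (conj_invol_stab hS hu1 hu hp hg) (conj_invol_stab hS hv1 hv hq hg)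
    exact hx (conj_eq_one_iff.mp
      (show g * (u * v * (u * v)) * g⁻¹ = 1 by rw [← h]; group))
  constructor
  · obtain ⟨g, hg⟩ := invol_conj hS hv1 hv hS.ne_one hS.mul_self
    obtain ⟨c, hc, -⟩ := fix_unique hS hS.ne_one hS.mul_self
    have hca : c ≠ a := fun h => hS.not_mem (h ▸ hc)
    have hgq : g • q = c := by
      refine fix_eq hS hS.ne_one hS.mul_self ?_ hc
      rw [← hg, mul_smul, mul_smul, inv_smul_smul, hq]
    have hgp : g • p ≠ c := fun h => hpq (MulAction.injective g (h.trans hgq.symm))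
    obtain ⟨h, hh⟩ := exists_move hS c a
    obtain ⟨w, hw, -⟩ := existsUnique_q hS (b := h • g • p) (c := h • a)
      (fun h' => hgp (MulAction.injective h (h'.trans hh.symm)))
      (fun h' => hca (MulAction.injective h (hh.trans h'.symm)))
    have hcomm : t * (h⁻¹ * w * h) = h⁻¹ * w * h * t := by
      have := invol_central hS (conj_invol_stab hS hS.ne_one hS.mul_self hc hh) w.2
      calc t * (h⁻¹ * w * h) = h⁻¹ * (h * t * h⁻¹ * w) * h := by group
        _ = h⁻¹ * w * h * t := by rw [this]; group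
    set f := h⁻¹ * (w : G) * h * g with hf
    have hfp : f • p = a := by
      rw [hf, mul_smul, mul_smul, mul_smul, hw, inv_smul_smul]
    refine ⟨f, f * u * f⁻¹, conj_invol_stab hS hu1 hu hp hfp, ?_⟩
    have hfv : f * v * f⁻¹ = t := by
      calc f * v * f⁻¹ = h⁻¹ * w * h * (g * v * g⁻¹) * (h⁻¹ * w * h)⁻¹ := by rw [hf]; group
        _ = t := by rw [hg, ← hcomm, mul_inv_cancel_right]
    calc f * (u * v) * f⁻¹ = f * u * f⁻¹ * (f * v * f⁻¹) := by group
      _ = f * u * f⁻¹ * t := by rw [hfv]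
  · rw [← Nat.not_even_iff_odd]
    intro hev
    haveI : Fact (Nat.Prime 2) := ⟨Nat.prime_two⟩
    obtain ⟨z, hz⟩ := exists_prime_orderOf_dvd_card'
      (G := Subgroup.centralizer {u * v}) 2 hev.two_dvd
    have hz2 : (z : G) * z = 1 := by
      have := pow_orderOf_eq_one z
      rw [hz, pow_two] at this
      exact congrArg Subtype.val this
    have hz1 : (z : G) ≠ 1 := fun h => by
      rw [OneMemClass.coe_eq_one] at h; simp [h] at hz
    have hzx : (z : G) * (u * v) = u * v * z := Subgroup.mem_centralizer_singleton_iff.mp z.2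
    obtain ⟨o, ho, -⟩ := fix_unique hS hz1 hz2
    have hxo : (u * v) • o = o := fix_eq hS hz1 hz2 (by rw [smul_smul, hzx, mul_smul, ho]) ho
    have ui := inv_eq_of_mul_eq_one_right hu
    have vi := inv_eq_of_mul_eq_one_right hv
    have main : ∀ w : G, w * w = 1 → w * (u * v) * w⁻¹ = (u * v)⁻¹ → w • o ≠ o → False := by
      intro w hw hwi hwo
      have wi := inv_eq_of_mul_eq_one_right hw
      have hxw : (u * v) • (w • o) = w • o := by
        have e : u * v * w = w * (u * v)⁻¹ := by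
          rw [← hwi, wi]; simp only [← mul_assoc, hw, one_mul]
        rw [smul_smul, e, mul_smul, inv_smul_eq_of_fix hxo]
      refine hx ?_
      rw [eq_one_of_inverted' hS hw hwo hxo hxw hwi (c := (z : G) • (w • o)) ?_ ?_ ?_, one_mul]
      · intro h'
        exact hwo (MulAction.injective (z : G) (h'.trans ho.symm))
      · intro h'
        exact hwo (fix_eq hS hz1 hz2 h' ho)
      · rw [smul_smul, ← hzx, mul_smul, hxw]
    by_cases huo : u • o = o
    · refine main v hv ?_ fun h => hpq ((fix_eq hS hu1 hu hp huo).trans (fix_eq hS hv1 hv hq h).symm)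
      rw [mul_inv_rev, ui, vi, mul_assoc, mul_assoc, hv, mul_one]
    · refine main u hu ?_ huo
      rw [mul_inv_rev, ui, vi, ← mul_assoc u u, hu, one_mul]

end Cfsg.Agent.Lib.RankOne
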