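import Mathlib
import Cfsg.Agent.S0033
import Cfsg.Agent.S1161
import Cfsg.Agent.Lib.RankOne.Nilpotent

/-!
# The inverted set is a cyclic normal subgroup of the two-point stabiliser

`D` acts on the elementary abelian group formed by the involutions of `G_a`, transitively on the
non-identity elements, so its derived subgroup is semiregular modulo the kernel `W`.
-/

set_option autoImplicit false
set_option linter.style.haveILetI false
set_option linter.unusedSectionVars false
open Cfsg MulAction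
open scoped commutatorElement

namespace Cfsg.Agent.Lib.RankOne

/-- Conjugation by units preserving a finite subalgebra, which is a field, is a cyclic action. -/
theorem exists_conj_generator {M : Type*} [Ring M] [Algebra (ZMod 2) M] (A : Subalgebra (ZMod 2) M)
    [Finite A] [IsDomain A] {V : Type*} [Group V] (u : V →* M)
    (h : ∀ v, ∀ f ∈ A, u v * f * u v⁻¹ ∈ A) :
    ∃ v₀ : V, ∀ v : V, ∃ i : ℤ, ∀ f ∈ A,
      u (v * (v₀ ^ i)⁻¹) * f * u (v * (v₀ ^ i)⁻¹)⁻¹ = f := by
  haveI : Fact (Nat.Prime 2) := ⟨Nat.prime_two⟩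
  letI : Field A := (Finite.isDomain_to_isField A).toField
  have hinv : ∀ v, u v⁻¹ * u v = 1 := fun v => by rw [← map_mul, inv_mul_cancel, map_one]
  let hom : V → (A →ₐ[ZMod 2] A) := fun v =>
    { toFun := fun f => ⟨u v * f * u v⁻¹, h v f f.2⟩
      map_one' := Subtype.ext (by
        show u v * 1 * u v⁻¹ = 1
        rw [mul_one, ← map_mul, mul_inv_cancel, map_one])
      map_mul' := fun f g => Subtype.ext (by
        show u v * (f * g) * u v⁻¹ = u v * f * u v⁻¹ * (u v * g * u v⁻¹)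
        rw [show u v * (f : M) * u v⁻¹ * (u v * g * u v⁻¹) =
          u v * f * (u v⁻¹ * u v) * g * u v⁻¹ by simp only [mul_assoc], hinv]
        simp only [mul_one, mul_assoc])
      map_zero' := Subtype.ext (by
        show u v * 0 * u v⁻¹ = 0
        rw [mul_zero, zero_mul])
      map_add' := fun f g => Subtype.ext (by
        show u v * (f + g) * u v⁻¹ = _
        rw [mul_add, add_mul]
        rfl)
      commutes' := fun c => Subtype.ext (by
        show u v * algebraMap (ZMod 2) M c * u v⁻¹ = algebraMap (ZMod 2) M c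
        rw [← Algebra.commutes, mul_assoc, ← map_mul, mul_inv_cancel, map_one, mul_one]) }
  have hinj : ∀ v, Function.Injective (hom v) := fun v f g e => by
    have key : ∀ f : A, u v⁻¹ * ((hom v f : A) : M) * u v = f := fun f => by
      show u v⁻¹ * (u v * (f : M) * u v⁻¹) * u v = f
      rw [show u v⁻¹ * (u v * (f : M) * u v⁻¹) * u v = (u v⁻¹ * u v) * f * (u v⁻¹ * u v) by
        simp only [mul_assoc], hinv, one_mul, mul_one]
    exact Subtype.ext ((key f).symm.trans ((by rw [e] : _ = _).trans (key g)))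
  let Φ : V →* (A ≃ₐ[ZMod 2] A) :=
    { toFun := fun v => AlgEquiv.ofBijective (hom v) (Finite.injective_iff_bijective.1 (hinj v))
      map_one' := AlgEquiv.ext fun f => Subtype.ext (by
        show u 1 * (f : M) * u 1⁻¹ = f
        rw [inv_one, map_one, one_mul, mul_one])
      map_mul' := fun v w => AlgEquiv.ext fun f => Subtype.ext (by
        show u (v * w) * (f : M) * u (v * w)⁻¹ = u v * (u w * f * u w⁻¹) * u v⁻¹
        rw [mul_inv_rev, map_mul, map_mul]
        simp only [mul_assoc]) }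
  haveI : IsCyclic (A ≃ₐ[ZMod 2] A) := inferInstance
  obtain ⟨g, hg⟩ := (inferInstance : IsCyclic Φ.range).exists_generator
  obtain ⟨v₀, hv₀⟩ := g.2
  refine ⟨v₀, fun v => ?_⟩
  obtain ⟨i, hi⟩ := hg ⟨Φ v, ⟨_, rfl⟩⟩
  refine ⟨i, fun f hf => ?_⟩
  have hw : Φ (v * (v₀ ^ i)⁻¹) = 1 := by
    rw [map_mul, map_inv, map_zpow, hv₀, mul_inv_eq_one]
    exact (congrArg Subtype.val hi).symm
  exact congrArg Subtype.val (AlgEquiv.congr_fun hw ⟨f, hf⟩)

/-- A group normalising a commutative group `C`, transitive on the non-zero vectors of a space over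
two elements, is cyclic modulo the elements acting as commuting with `C`. -/
theorem exists_mod_commutant {N : Type*} [AddCommGroup N] [Module (ZMod 2) N] [Finite N]
    {Dg : Type*} [Group Dg] (act : Dg →* Module.End (ZMod 2) N) (C V : Subgroup Dg)
    (hC : ∀ k ∈ C, ∀ k' ∈ C, k * k' = k' * k) {se : N} (hse : se ≠ 0)
    (htrans : ∀ y : N, y ≠ 0 → ∃ k ∈ C, act k se = y)
    (hV : ∀ v ∈ V, ∀ k ∈ C, v⁻¹ * k * v ∈ C) :
    ∃ v₀ ∈ V, ∀ v ∈ V, ∃ i : ℤ, ∀ k ∈ C,
      act (v * (v₀ ^ i)⁻¹) * act k = act k * act (v * (v₀ ^ i)⁻¹) := by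
  classical
  let A := Subalgebra.centralizer (ZMod 2) (act '' (C : Set Dg))
  have hCA : ∀ k ∈ C, act k ∈ A := by
    intro k hk
    rw [Subalgebra.mem_centralizer_iff]
    rintro _ ⟨k', hk', rfl⟩
    rw [← map_mul, ← map_mul, hC k' hk' k hk]
  have hinj : ∀ f g : A, (f : Module.End (ZMod 2) N) se = (g : Module.End (ZMod 2) N) se → f = g := by
    intro f g hfg
    refine Subtype.ext (LinearMap.ext fun y => ?_)
    rcases eq_or_ne y 0 with rfl | hy
    · rw [map_zero, map_zero]
    obtain ⟨k, hk, rfl⟩ := htrans y hy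
    have hf := LinearMap.congr_fun ((Subalgebra.mem_centralizer_iff _).1 f.2 _ ⟨k, hk, rfl⟩) se
    have hg := LinearMap.congr_fun ((Subalgebra.mem_centralizer_iff _).1 g.2 _ ⟨k, hk, rfl⟩) se
    simp only [Module.End.mul_apply] at hf hg
    rw [← hf, ← hg, hfg]
  haveI : Finite (Module.End (ZMod 2) N) :=
    Finite.of_injective (fun f : Module.End (ZMod 2) N => (f : N → N)) DFunLike.coe_injective
  haveI : Nontrivial A :=
    ⟨⟨0, 1, fun h => hse (LinearMap.congr_fun (congrArg Subtype.val h) se).symm⟩⟩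
  have hunit : ∀ f : A, f ≠ 0 → IsUnit f := by
    intro f hf
    obtain ⟨k, hk, hks⟩ := htrans ((f : Module.End (ZMod 2) N) se) fun h => hf (hinj f 0 h)
    have hfe : f = ⟨act k, hCA k hk⟩ := hinj _ _ hks.symm
    refine ⟨⟨⟨act k, hCA k hk⟩, ⟨act k⁻¹, hCA _ (C.inv_mem hk)⟩, ?_, ?_⟩, hfe.symm⟩
    · exact Subtype.ext (by
        show act k * act k⁻¹ = 1
        rw [← map_mul, mul_inv_cancel, map_one])
    · exact Subtype.ext (by
        show act k⁻¹ * act k = 1
        rw [← map_mul, inv_mul_cancel, map_one])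
  haveI : IsDomain A := by
    haveI : NoZeroDivisors A := ⟨fun {f g} h => by
      by_cases hf : f = 0
      · exact Or.inl hf
      · exact Or.inr (((hunit f hf).mul_right_eq_zero).1 h)⟩
    exact NoZeroDivisors.to_isDomain A
  have hVn : ∀ v ∈ V, ∀ f ∈ A, act v * f * act v⁻¹ ∈ A := by
    intro v hv f hf
    rw [Subalgebra.mem_centralizer_iff] at hf ⊢
    rintro _ ⟨k, hk, rfl⟩
    have h1 : act (v⁻¹ * k * v) * f = f * act (v⁻¹ * k * v) := hf _ ⟨_, hV v hv k hk, rfl⟩
    have e : act k = act v * act (v⁻¹ * k * v) * act v⁻¹ := by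
      rw [← map_mul, ← map_mul]
      congr 1
      group
    have hvv : act v⁻¹ * act v = 1 := by rw [← map_mul, inv_mul_cancel, map_one]
    calc act k * (act v * f * act v⁻¹)
        = act v * act (v⁻¹ * k * v) * (act v⁻¹ * act v) * f * act v⁻¹ := by
          rw [e]; simp only [mul_assoc]
      _ = act v * (act (v⁻¹ * k * v) * f) * act v⁻¹ := by rw [hvv]; simp only [mul_one, mul_assoc]
      _ = act v * f * (act v⁻¹ * act v) * act (v⁻¹ * k * v) * act v⁻¹ := by
          rw [h1, hvv]; simp only [mul_one, mul_assoc]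
      _ = act v * f * act v⁻¹ * act k := by rw [e]; simp only [mul_assoc]
  obtain ⟨v₀, hv₀⟩ := exists_conj_generator A (act.comp V.subtype) fun v => hVn v v.2
  refine ⟨v₀, v₀.2, fun v hv => ?_⟩
  obtain ⟨i, hi⟩ := hv₀ ⟨v, hv⟩
  refine ⟨i, fun k hk => ?_⟩
  set w : Dg := v * ((v₀ : Dg) ^ i)⁻¹
  have h : act w * act k * act w⁻¹ = act k := by
    have h0 := hi _ (hCA k hk)
    simpa [w] using h0
  calc act w * act k = act w * act k * (act w⁻¹ * act w) := by
        rw [← map_mul act w⁻¹, inv_mul_cancel, map_one, mul_one]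
    _ = act w * act k * act w⁻¹ * act w := (mul_assoc _ _ _).symm
    _ = act k * act w := by rw [h]

variable {G Ω : Type*} [Group G] [Finite G] [MulAction G Ω] [FaithfulSMul G Ω] {a : Ω} {t : G}
  {Q : Subgroup G} (hS : IsRankOneSetup G Ω a t Q)
  (h2 : ∃ x y : G, x ≠ 1 ∧ y ≠ 1 ∧ x ≠ y ∧ x * x = 1 ∧ y * y = 1 ∧ x * y = y * x)

include hS h2

theorem isNilpotent_Q : Group.IsNilpotent Q :=
  nilpotent_Q hS (fun φ h p hp ho => S0033.result φ h p hp ho) h2

/-- The involutions of `G_a` with the identity form an elementary abelian subgroup of `Q`. -/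
theorem exists_involSubgroup : ∃ E : Subgroup G,
    (∀ x, x ∈ E ↔ x = 1 ∨ x ∈ involutionsIn (stabilizer G a : Set G)) ∧ E ≤ Q ∧
      ∀ x ∈ E, ∀ q ∈ Q, x * q = q * x := by
  haveI := isNilpotent_Q hS h2
  let E : Subgroup G :=
    { carrier := {x | x = 1 ∨ x ∈ involutionsIn (stabilizer G a : Set G)}
      one_mem' := Or.inl rfl
      mul_mem' := fun {x y} hx hy => by
        rcases hx with rfl | hx
        · rw [one_mul]; exact hy
        rcases hy with rfl | hy
        · rw [mul_one]; exact Or.inr hx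
        by_cases h : x * y = 1
        · exact Or.inl h
        · exact Or.inr ⟨mul_mem hx.1 hy.1, h, invol_mul hS hx hy⟩
      inv_mem' := fun {x} hx => by
        rcases hx with rfl | hx
        · exact Or.inl inv_one
        · rw [inv_eq_of_mul_eq_one_right hx.2.2]; exact Or.inr hx }
  refine ⟨E, fun x => Iff.rfl, ?_, ?_⟩
  · rintro x (rfl | hx)
    · exact Q.one_mem
    · exact mem_Q_of_invol hS hx.1 hx.2.2
  · rintro x (rfl | hx) q hq
    · rw [one_mul, mul_one]
    · exact invol_central hS hx hq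

/-- Modulo the centraliser `W` of the involutions, a commutator fixing one involution is trivial. -/
theorem commutator_semiregular {x u : G} (hx : x ∈ ⁅twoPt a t, twoPt a t⁆)
    (hu : u ∈ involutionsIn (stabilizer G a : Set G)) (hxu : x * u = u * x) :
    ∀ v ∈ involutionsIn (stabilizer G a : Set G), x * v = v * x := by
  classical
  haveI := isNilpotent_Q hS h2
  obtain ⟨E, hE, hEQ, hEc⟩ := exists_involSubgroup hS h2
  set D := twoPt a t
  have hconj : ∀ d ∈ D, ∀ y ∈ E, d * y * d⁻¹ ∈ E := by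
    intro d hd y hy
    rcases (hE y).1 hy with rfl | hy
    · simpa using E.one_mem
    · refine (hE _).2 (Or.inr ⟨mul_mem (mul_mem hd.1 hy.1) (inv_mem hd.1), fun h => hy.2.1
        (conj_eq_one_iff.mp h), ?_⟩)
      calc d * y * d⁻¹ * (d * y * d⁻¹) = d * (y * y) * d⁻¹ := by group
        _ = 1 := by rw [hy.2.2, mul_one, mul_inv_cancel]
  haveI hnorm : (E.subgroupOf (D ⊔ E)).Normal := by
    refine Subgroup.normal_subgroupOf_of_le_normalizer (sup_le ?_ Subgroup.le_normalizer)
    intro d hd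
    rw [Subgroup.mem_normalizer_iff]
    exact fun y => ⟨hconj d hd y, fun h => by
      have := hconj d⁻¹ (inv_mem hd) _ h
      simpa [mul_assoc] using this⟩
  let c : D →* MulAut E :=
    { toFun := fun d =>
        { toFun := fun y => ⟨d * y * (d : G)⁻¹, hconj d d.2 y y.2⟩
          invFun := fun y => ⟨(d : G)⁻¹ * y * ((d : G)⁻¹)⁻¹, hconj _ (inv_mem d.2) y y.2⟩
          left_inv := fun y => Subtype.ext (by simp [mul_assoc])
          right_inv := fun y => Subtype.ext (by simp [mul_assoc])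
          map_mul' := fun y z => Subtype.ext (by simp [mul_assoc]) }
      map_one' := MulEquiv.ext fun y => Subtype.ext (by simp)
      map_mul' := fun d d' => MulEquiv.ext fun y => Subtype.ext (by simp [mul_assoc]) }
  letI : CommGroup E :=
    { (inferInstance : Group E) with
      mul_comm := fun y z => Subtype.ext (hEc y y.2 z (hEQ z.2)) }
  letI : DistribMulAction c.range (Additive E) :=
    { smul := fun f y => Additive.ofMul ((f : MulAut E) y.toMul)
      one_smul := fun y => rfl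
      mul_smul := fun f g y => rfl
      smul_zero := fun f => congrArg Additive.ofMul (map_one (f : MulAut E))
      smul_add := fun f y z => congrArg Additive.ofMul (map_mul (f : MulAut E) y.toMul z.toMul) }
  haveI : FaithfulSMul c.range (Additive E) :=
    ⟨fun {f g} h => Subtype.ext (MulEquiv.ext fun y =>
      Additive.ofMul.injective (h (Additive.ofMul y)))⟩
  haveI : Finite (Additive E) := inferInstanceAs (Finite E)
  haveI : Nontrivial (Additive E) :=
    ⟨⟨Additive.ofMul ⟨u, (hE u).2 (Or.inr hu)⟩, 0, fun h => hu.2.1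
      (congrArg Subtype.val (Additive.ofMul.injective h))⟩⟩
  have hinv : ∀ y : Additive E, y ≠ 0 →
      ((y.toMul : E) : G) ∈ involutionsIn (stabilizer G a : Set G) := fun y hy =>
    ((hE _).1 y.toMul.2).resolve_left fun h => hy (Additive.toMul.injective (Subtype.ext h))
  obtain ⟨-, hsemi, hcomm⟩ := S1161.result (D := c.range) (E := Additive E)
    (hS.odd_card.of_dvd_nat (Subgroup.card_range_dvd c)) Nat.prime_two
    (fun y => Additive.toMul.injective (Subtype.ext (by
      show (((y.toMul : E) ^ 2 : E) : G) = 1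
      rcases (hE _).1 y.toMul.2 with h | h
      · rw [SubmonoidClass.coe_pow, h, one_pow]
      · rw [SubmonoidClass.coe_pow, pow_two, h.2.2])))
    (fun y z hy hz => by
      obtain ⟨k, hk, hkz⟩ := K_transitive hS (hinv y hy) (hinv z hz)
      refine ⟨⟨c ⟨k⁻¹, inv_mem hk.1⟩, ⟨_, rfl⟩⟩, Additive.toMul.injective (Subtype.ext ?_)⟩
      show k⁻¹ * ((y.toMul : E) : G) * k⁻¹⁻¹ = _
      rw [inv_inv]
      exact hkz)
  have hxD : x ∈ D := (Subgroup.commutator_le_self D) hx
  have hmem : (⟨c ⟨x, hxD⟩, ⟨_, rfl⟩⟩ : c.range) ∈ commutator c.range := by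
    have h1 : (commutator D).map c.rangeRestrict ≤ commutator c.range := by
      rw [commutator_def, commutator_def, Subgroup.map_commutator]
      exact Subgroup.commutator_mono le_top le_top
    refine h1 ⟨⟨x, hxD⟩, ?_, rfl⟩
    have h3 : (commutator D).map D.subtype = ⁅D, D⁆ := Subgroup.map_subtype_commutator D
    rw [← h3] at hx
    obtain ⟨z, hz, hzx⟩ := hx
    have : (⟨x, hxD⟩ : D) = z := Subtype.ext hzx.symm
    rw [this]
    exact hz
  intro v hv
  have hfix : (⟨c ⟨x, hxD⟩, ⟨_, rfl⟩⟩ : c.range) = 1 := by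
    by_contra hne
    have := hsemi _ (hcomm hmem) hne (Additive.ofMul ⟨u, (hE u).2 (Or.inr hu)⟩)
      (congrArg Additive.ofMul (Subtype.ext (mul_inv_eq_iff_eq_mul.2 hxu)))
    exact hu.2.1 (congrArg Subtype.val (Additive.ofMul.injective this))
  have := congrArg Subtype.val (MulEquiv.congr_fun (congrArg Subtype.val hfix)
    (⟨v, (hE v).2 (Or.inr hv)⟩ : E))
  exact mul_inv_eq_iff_eq_mul.1 this

/-- `W` is centralised by `t` and centralises `K`. -/
theorem W_commute {w : G} (hw : w ∈ twoPt a t)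
    (hwI : ∀ u ∈ involutionsIn (stabilizer G a : Set G), w * u = u * w) :
    w * t = t * w ∧ ∀ k ∈ invertedBy (twoPt a t) t, w * k = k * w := by
  obtain ⟨r, s, hr, -, hs, he⟩ := exists_structure hS
  have hwt := (commute_iff hS hs.1 hr he hw).mpr (hwI s hs)
  refine ⟨hwt, fun k hk => ?_⟩
  obtain ⟨hkD, hkt⟩ := (mem_K_iff hS).mp hk
  have hu : k⁻¹ * s * k ∈ involutionsIn (stabilizer G a : Set G) := by
    refine ⟨mul_mem (mul_mem (inv_mem hkD.1) hs.1) hkD.1, ?_, ?_⟩
    · intro h
      exact hs.2.1 (conj_eq_one_iff.mp (show k⁻¹ * s * (k⁻¹)⁻¹ = 1 by rwa [inv_inv]))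
    · simp only [mul_assoc, mul_inv_cancel_left]
      rw [← mul_assoc s s, hs.2.2, one_mul, inv_mul_cancel]
  have h1 : (k * w * k⁻¹) * t = t * (k * w * k⁻¹) := by
    refine (commute_iff hS hs.1 hr he (mul_mem (mul_mem hkD hw) (inv_mem hkD))).mpr ?_
    calc k * w * k⁻¹ * s = k * (w * (k⁻¹ * s * k)) * k⁻¹ := by group
      _ = s * (k * w * k⁻¹) := by rw [hwI _ hu]; group
  have h2' : k⁻¹ * w * k = k * w * k⁻¹ := by
    have e : t * (k * w * k⁻¹) * t = k * w * k⁻¹ := by
      rw [← h1, mul_assoc, hS.mul_self, mul_one]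
    rw [← e, ← hk.2, inv_eq hS]
    calc t * k * t * w * k = t * k * (t * w) * k := by group
      _ = t * k * (w * t) * k := by rw [hwt]
      _ = t * (k * w * (t * k * t)) * t := by
        simp only [mul_assoc, hS.mul_self, mul_one]
  have h3 : Commute w (k * k) := by
    calc w * (k * k) = k * (k⁻¹ * w * k) * k := by group
      _ = k * k * w := by rw [h2']; group
  exact (commute_of_commute_sq (orderOf_odd_of_mem hS.odd_card hkD) h3).eq

/-- The elements of `D` inverted by `t` form a cyclic subgroup normal in `D`. -/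
theorem exists_cyclic_K : ∃ C : Subgroup G, (C : Set G) = invertedBy (twoPt a t) t ∧ IsCyclic C ∧
    ∀ d ∈ twoPt a t, ∀ c ∈ C, d * c * d⁻¹ ∈ C := by
  classical
  haveI := isNilpotent_Q hS h2
  set D := twoPt a t with hD
  obtain ⟨r, s, hr, -, hs, he⟩ := exists_structure hS
  set W : Subgroup G := D ⊓ Subgroup.centralizer (involutionsIn (stabilizer G a : Set G)) with hW
  have hWI : ∀ w ∈ W, ∀ u ∈ involutionsIn (stabilizer G a : Set G), w * u = u * w :=
    fun w hw u hu => (Subgroup.mem_centralizer_iff.mp hw.2 u hu).symm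
  have hWmem : ∀ w ∈ D, (∀ u ∈ involutionsIn (stabilizer G a : Set G), w * u = u * w) → w ∈ W :=
    fun w hw h => ⟨hw, Subgroup.mem_centralizer_iff.mpr fun u hu => (h u hu).symm⟩
  have hinvol : ∀ d ∈ D, ∀ u ∈ involutionsIn (stabilizer G a : Set G),
      d * u * d⁻¹ ∈ involutionsIn (stabilizer G a : Set G) := fun d hd u hu =>
    ⟨mul_mem (mul_mem hd.1 hu.1) (inv_mem hd.1), fun h => hu.2.1 (conj_eq_one_iff.mp h), by
      calc d * u * d⁻¹ * (d * u * d⁻¹) = d * (u * u) * d⁻¹ := by group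
        _ = 1 := by rw [hu.2.2, mul_one, mul_inv_cancel]⟩
  have hWn : ∀ d ∈ D, ∀ w ∈ W, d * w * d⁻¹ ∈ W := by
    intro d hd w hw
    refine hWmem _ (mul_mem (mul_mem hd hw.1) (inv_mem hd)) fun u hu => ?_
    have h := hWI w hw _ (hinvol d⁻¹ (inv_mem hd) u hu)
    rw [inv_inv] at h
    calc d * w * d⁻¹ * u = d * (w * (d⁻¹ * u * d)) * d⁻¹ := by group
      _ = u * (d * w * d⁻¹) := by rw [h]; group
  have ht : ∀ d ∈ D, t * d * t ∈ D := fun d hd => conj_t_mem hS hd
  -- the subgroup `N = W D'` of `D`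
  let WD : Subgroup D := W.subgroupOf D
  haveI : WD.Normal := ⟨fun w hw d => hWn d d.2 w hw⟩
  let N : Subgroup D := WD ⊔ commutator D
  haveI hNn : N.Normal := inferInstance
  let τ : D →* D :=
    { toFun := fun d => ⟨t * d * t, ht d d.2⟩
      map_one' := Subtype.ext (by simp [hS.mul_self])
      map_mul' := fun d e => Subtype.ext (by
        show t * ((d : G) * e) * t = t * d * t * (t * e * t)
        simp only [mul_assoc, tt_mul hS]) }
  have hτW : ∀ w ∈ WD, τ w = w := fun w hw => Subtype.ext (by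
    show t * (w : G) * t = w
    rw [← (W_commute hS h2 w.2 (hWI w hw)).1, mul_assoc, hS.mul_self, mul_one])
  have hNτ : N ≤ N.comap τ := by
    refine sup_le (fun w hw => Subgroup.mem_comap.2 ?_) ?_
    · rw [hτW w hw]
      exact Subgroup.mem_sup_left hw
    · rw [← Subgroup.map_le_iff_le_comap, commutator_def, Subgroup.map_commutator]
      exact le_sup_of_le_right (Subgroup.commutator_mono le_top le_top)
  have hNsemi : ∀ n ∈ N, ∀ u ∈ involutionsIn (stabilizer G a : Set G),
      (n : G) * u = u * n → n ∈ WD := by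
    intro n hn u hu hnu
    obtain ⟨w, hw, c, hc, rfl⟩ := Subgroup.mem_sup_of_normal_left.1 hn
    have hc' : ((c : D) : G) ∈ ⁅D, D⁆ := by
      rw [← Subgroup.map_subtype_commutator]
      exact ⟨c, hc, rfl⟩
    have hcu : (c : G) * u = u * c := by
      have h1 : (w : G) * u = u * w := hWI w hw u hu
      have h2' : (w : G) * c * u = u * ((w : G) * c) := hnu
      rw [← mul_assoc u, ← h1, mul_assoc, mul_assoc] at h2'
      exact mul_left_cancel h2'
    exact WD.mul_mem hw (hWmem _ c.2 (commutator_semiregular hS h2 hc' hu hcu))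
  -- elements inverted by `t` modulo `N`
  let ψ : D →* D ⧸ N :=
    { toFun := fun d => QuotientGroup.mk (τ d) * QuotientGroup.mk d
      map_one' := by simp
      map_mul' := fun d e => by
        have hc : ∀ p q : D ⧸ N, p * q = q * p := by
          intro p q
          induction p using QuotientGroup.induction_on with
          | H p =>
          induction q using QuotientGroup.induction_on with
          | H q =>
          rw [← QuotientGroup.mk_mul, ← QuotientGroup.mk_mul, QuotientGroup.eq]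
          rw [show (p * q)⁻¹ * (q * p) = ⁅q⁻¹, p⁻¹⁆ by simp only [commutatorElement_def]; group]
          exact Subgroup.mem_sup_right (Subgroup.commutator_mem_commutator trivial trivial)
        rw [map_mul, QuotientGroup.mk_mul, QuotientGroup.mk_mul, mul_assoc, ← mul_assoc _ _ (e : D ⧸ N),
          hc (QuotientGroup.mk (τ e)) (QuotientGroup.mk d), ← mul_assoc, ← mul_assoc, mul_assoc] }
  let M := ψ.ker
  have hKM : ∀ k (hk : k ∈ invertedBy D t), (⟨k, hk.1⟩ : D) ∈ M := fun k hk => by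
    rw [MonoidHom.mem_ker]
    show QuotientGroup.mk (τ ⟨k, hk.1⟩) * QuotientGroup.mk (⟨k, hk.1⟩ : D) = (1 : D ⧸ N)
    rw [← QuotientGroup.mk_mul, show τ ⟨k, hk.1⟩ * (⟨k, hk.1⟩ : D) = 1 from Subtype.ext (by
      show t * k * t * k = 1
      rw [((mem_K_iff hS).1 hk).2, inv_mul_cancel]), QuotientGroup.mk_one]
  -- `M` is semiregular modulo `W`
  have hMsemi : ∀ m ∈ M, ∀ u ∈ involutionsIn (stabilizer G a : Set G),
      (m : G) * u = u * m → m ∈ WD := by
    intro m hm u hu hmu
    obtain ⟨k, hk, hku⟩ := K_transitive hS hs hu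
    set d : D := ⟨k, hk.1⟩
    set m' : D := d * m * d⁻¹
    have hm' : m' ∈ M := (inferInstance : ψ.ker.Normal).conj_mem m hm d
    have hm's : (m' : G) * s = s * m' := by
      show k * m * k⁻¹ * s = s * (k * m * k⁻¹)
      have hse : s = k * u * k⁻¹ := by rw [← hku]; group
      rw [hse]
      calc k * m * k⁻¹ * (k * u * k⁻¹) = k * ((m : G) * u) * k⁻¹ := by group
        _ = _ := by rw [hmu]; group
    have hm't : (m' : G) * t = t * m' := (commute_iff hS hs.1 hr he m'.2).mpr hm's
    have hsq : m' * m' ∈ N := by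
      rw [MonoidHom.mem_ker] at hm'
      have : QuotientGroup.mk (τ m') * QuotientGroup.mk m' = (1 : D ⧸ N) := hm'
      rw [show τ m' = m' from Subtype.ext (by
        show t * (m' : G) * t = m'
        rw [← hm't, mul_assoc, hS.mul_self, mul_one]), ← QuotientGroup.mk_mul,
        QuotientGroup.eq_one_iff] at this
      exact this
    have hm'N : m' ∈ N := by
      obtain ⟨j, hj⟩ := (hS.odd_card.of_dvd_nat (orderOf_dvd_natCard m'))
      have e : (m' * m') ^ (j + 1) = m' := by
        rw [← pow_two, ← pow_mul, show 2 * (j + 1) = orderOf m' + 1 by omega, pow_succ,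
          pow_orderOf_eq_one, one_mul]
      rw [← e]
      exact N.pow_mem hsq _
    have := hNsemi m' hm'N s hs hm's
    have h := (inferInstance : WD.Normal).conj_mem m' this d⁻¹
    simpa [m', mul_assoc] using h
  -- decomposition `M = W K`
  have hfac : ∀ m ∈ M, ∃ w ∈ WD, ∃ k : G, ∃ hk : k ∈ invertedBy D t, m = w * ⟨k, hk.1⟩ := by
    intro m hm
    obtain ⟨y, z, hy, hyt, hz, hyz⟩ := exists_factor hS.mul_self hS.odd_card
      (fun x hx => by rw [inv_eq hS]; exact ht x hx) m.2
    refine ⟨⟨y, hy⟩, ?_, z, hz, Subtype.ext hyz⟩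
    refine hMsemi _ ?_ s hs ((commute_iff hS hs.1 hr he hy).mp hyt)
    have : (⟨y, hy⟩ : D) = m * (⟨z, hz.1⟩ : D)⁻¹ := by
      rw [eq_mul_inv_iff_mul_eq]
      exact Subtype.ext hyz.symm
    rw [this]
    exact M.mul_mem hm (M.inv_mem (hKM z hz))
  -- the action of `M` on the involutions
  obtain ⟨E, hE, hEQ, hEc⟩ := exists_involSubgroup hS h2
  -- `M / W` is cyclic
  let MW : Subgroup M := WD.subgroupOf M
  haveI : MW.Normal := inferInstanceAs (WD.subgroupOf M).Normal
  have hMcomm : ∀ p q : M ⧸ MW, p * q = q * p := by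
    let ι : M ⧸ MW →* M ⧸ MW := QuotientGroup.map MW MW
      { toFun := fun m : M => ⟨τ (m : D), by
          obtain ⟨w, hw, k, hk, hmk⟩ := hfac m m.2
          rw [hmk, map_mul, hτW w hw]
          refine M.mul_mem ?_ ?_
          · have : (w : D) = (m : D) * (⟨k, hk.1⟩ : D)⁻¹ := by rw [hmk, mul_inv_cancel_right]
            rw [this]
            exact M.mul_mem m.2 (M.inv_mem (hKM k hk))
          · have : τ ⟨k, hk.1⟩ = (⟨k, hk.1⟩ : D)⁻¹ := Subtype.ext ((mem_K_iff hS).1 hk).2
            rw [this]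
            exact M.inv_mem (hKM k hk)⟩
        map_one' := Subtype.ext (map_one τ)
        map_mul' := fun m m' => Subtype.ext (map_mul τ (m : D) (m' : D)) }
      (fun m hm => by
        show τ (m : D) ∈ WD
        rw [hτW (m : D) hm]
        exact hm)
    have hι : ∀ p, ι p = p⁻¹ := by
      intro p
      induction p using QuotientGroup.induction_on with
      | H m =>
      obtain ⟨w, hw, k, hk, hmk⟩ := hfac m m.2
      show (QuotientGroup.mk _ : M ⧸ MW) = _
      rw [← QuotientGroup.mk_inv, QuotientGroup.eq]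
      show (τ (m : D))⁻¹ * (m : D)⁻¹ ∈ WD
      rw [hmk, map_mul, hτW w hw, show τ ⟨k, hk.1⟩ = (⟨k, hk.1⟩ : D)⁻¹ from
        Subtype.ext ((mem_K_iff hS).1 hk).2, mul_inv_rev, inv_inv, mul_inv_rev]
      rw [show (⟨k, hk.1⟩ : D) * w⁻¹ * ((⟨k, hk.1⟩ : D)⁻¹ * w⁻¹) =
        ((⟨k, hk.1⟩ : D) * w⁻¹ * (⟨k, hk.1⟩ : D)⁻¹) * w⁻¹ by group]
      exact WD.mul_mem ((inferInstance : WD.Normal).conj_mem _ (WD.inv_mem hw) _) (WD.inv_mem hw)
    intro p q
    have h := map_mul ι p q
    rw [hι, hι, hι, mul_inv_rev] at h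
    have := congrArg (·⁻¹) h
    simpa using this
  have hMcyc : IsCyclic (M ⧸ MW) := by
    letI : CommGroup (M ⧸ MW) := { (inferInstance : Group (M ⧸ MW)) with mul_comm := hMcomm }
    letI : CommGroup E :=
      { (inferInstance : Group E) with
        mul_comm := fun y z => Subtype.ext (hEc y y.2 z (hEQ z.2)) }
    have hconjE : ∀ (d : D) (y : E), (d : G) * y * (d : G)⁻¹ ∈ E := fun d y => by
      rcases (hE _).1 y.2 with h | h
      · rw [h]
        simp [E.one_mem]
      · exact (hE _).2 (Or.inr (hinvol d d.2 y h))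
    let c : M →* MulAut E :=
      { toFun := fun d =>
          { toFun := fun y => ⟨_, hconjE (d : D) y⟩
            invFun := fun y => ⟨_, hconjE (d : D)⁻¹ y⟩
            left_inv := fun y => Subtype.ext (by simp [mul_assoc])
            right_inv := fun y => Subtype.ext (by simp [mul_assoc])
            map_mul' := fun y z => Subtype.ext (by simp [mul_assoc]) }
        map_one' := MulEquiv.ext fun y => Subtype.ext (by simp)
        map_mul' := fun d d' => MulEquiv.ext fun y => Subtype.ext (by simp [mul_assoc]) }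
    have hker : MW ≤ c.ker := fun m hm => by
      refine MulEquiv.ext fun y => Subtype.ext ?_
      show ((m : D) : G) * y * ((m : D) : G)⁻¹ = y
      rcases (hE _).1 y.2 with h | h
      · rw [h, mul_one, mul_inv_cancel]
      · rw [hWI ((m : D) : G) hm _ h, mul_inv_cancel_right]
    let cq : M ⧸ MW →* MulAut E := QuotientGroup.lift MW c hker
    haveI : Group.IsNilpotent (M ⧸ MW) := CommGroup.isNilpotent
    haveI : IsZGroup (M ⧸ MW) := ⟨fun p hp P => by
      haveI := Fact.mk hp
      by_cases hp2 : p = 2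
      · have h1 : (P : Subgroup (M ⧸ MW)) = ⊥ := by
          rw [← Subgroup.card_eq_one, P.card_eq_multiplicity,
            Nat.factorization_eq_zero_of_not_dvd, pow_zero]
          intro hd
          have h3 : Odd (Nat.card (M ⧸ MW)) :=
            (hS.odd_card.of_dvd_nat M.card_subgroup_dvd_card).of_dvd_nat MW.card_quotient_dvd_card
          exact Nat.not_even_iff_odd.2 h3 (even_iff_two_dvd.2 (hp2 ▸ hd))
        haveI : Subsingleton P := ⟨fun x y => Subtype.ext (by
          rw [Subgroup.mem_bot.1 (h1 ▸ x.2 : (x : M ⧸ MW) ∈ (⊥ : Subgroup (M ⧸ MW))),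
            Subgroup.mem_bot.1 (h1 ▸ y.2 : (y : M ⧸ MW) ∈ (⊥ : Subgroup (M ⧸ MW)))])⟩
        infer_instance
      letI : DistribMulAction P (Additive E) :=
        { smul := fun f y => Additive.ofMul (cq f y.toMul)
          one_smul := fun y => by
            show Additive.ofMul (cq 1 y.toMul) = y
            rw [map_one]; rfl
          mul_smul := fun f g y => by
            show Additive.ofMul (cq (f * g : M ⧸ MW) y.toMul) = _
            rw [map_mul]; rfl
          smul_zero := fun f => congrArg Additive.ofMul (map_one (cq f))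
          smul_add := fun f y z => congrArg Additive.ofMul (map_mul (cq f) y.toMul z.toMul) }
      have hfix : ∀ (f : P) (y : Additive E), y ≠ 0 → f • y = y → f = 1 := by
        intro f y hy hf
        obtain ⟨m, hm⟩ := QuotientGroup.mk_surjective (f : M ⧸ MW)
        have hyI := ((hE _).1 (y.toMul : E).2).resolve_left fun h =>
          hy (Additive.toMul.injective (Subtype.ext h))
        have h' : cq f y.toMul = y.toMul := Additive.ofMul.injective hf
        rw [← hm] at h'
        have h'' : ((m : D) : G) * (y.toMul : E) * ((m : D) : G)⁻¹ = (y.toMul : E) :=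
          congrArg Subtype.val h'
        refine Subtype.ext ?_
        rw [← hm]
        exact (QuotientGroup.eq_one_iff m).2 (hMsemi m m.2 _ hyI (mul_inv_eq_iff_eq_mul.1 h''))
      haveI : Finite (Additive E) := inferInstanceAs (Finite E)
      haveI : FaithfulSMul P (Additive E) := ⟨fun {f g} h => by
        rw [← inv_mul_eq_one]
        refine hfix _ (Additive.ofMul ⟨s, (hE s).2 (Or.inr hs)⟩)
          (fun h0 => hs.2.1 (congrArg Subtype.val (Additive.ofMul.injective h0))) ?_
        rw [mul_smul, inv_smul_eq_iff]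
        exact (h _).symm⟩
      exact (S1160.result (P := P) (E := Additive E) hp2 P.2 Nat.prime_two
        (fun y => Additive.toMul.injective (Subtype.ext (by
          show (((y.toMul : E) ^ 2 : E) : G) = 1
          rcases (hE _).1 y.toMul.2 with h | h
          · rw [SubmonoidClass.coe_pow, h, one_pow]
          · rw [SubmonoidClass.coe_pow, pow_two, h.2.2])))
        fun y z hy hz => by
          have e : ∀ w : Additive E, w ≠ 0 → MulAction.stabilizer P w = ⊥ := fun w hw =>
            (Subgroup.eq_bot_iff_forall _).2 fun f hf => hfix f w hw hf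
          rw [e y hy, e z hz]).1⟩
    infer_instance
  obtain ⟨g, hg⟩ := hMcyc.exists_generator
  obtain ⟨m₀, rfl⟩ := QuotientGroup.mk_surjective g
  obtain ⟨w₀, hw₀, k₀, hk₀, hm₀⟩ := hfac m₀ m₀.2
  have hmemK : ∀ k ∈ invertedBy D t, k ∈ Subgroup.zpowers k₀ := by
    intro k hk
    obtain ⟨j, hj⟩ := hg (QuotientGroup.mk (⟨⟨k, hk.1⟩, hKM k hk⟩ : M))
    have hj' : (QuotientGroup.mk (m₀ ^ j) : M ⧸ MW) =
        QuotientGroup.mk (⟨⟨k, hk.1⟩, hKM k hk⟩ : M) := by
      rw [QuotientGroup.mk_zpow]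
      exact hj
    have h1 : ((m₀ : D) ^ j)⁻¹ * ⟨k, hk.1⟩ ∈ WD := by
      have h1' := QuotientGroup.eq.1 hj'
      simpa [MW, Subgroup.mem_subgroupOf] using h1'
    set w : D := ((m₀ : D) ^ j)⁻¹ * ⟨k, hk.1⟩ with hwdef
    have h4 : Commute w₀ (⟨k₀, hk₀.1⟩ : D) :=
      Subtype.ext ((W_commute hS h2 w₀.2 (hWI _ hw₀)).2 k₀ hk₀)
    have hk0j : k₀ ^ j ∈ invertedBy D t := ⟨D.zpow_mem hk₀.1 j, by
      rw [← conj_zpow, hk₀.2, inv_zpow]⟩
    have e : k = (((w₀ ^ j : D) * w : D) : G) * k₀ ^ j := by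
      have e1 : (⟨k, hk.1⟩ : D) = (m₀ : D) ^ j * w := by rw [hwdef, mul_inv_cancel_left]
      have e2 : (w : G) * k₀ ^ j = k₀ ^ j * w := (W_commute hS h2 w.2 (hWI _ h1)).2 _ hk0j
      have e3 : k = ((w₀ : G) ^ j * k₀ ^ j) * w := by
        have := congrArg Subtype.val e1
        rw [hm₀, h4.mul_zpow] at this
        simpa using this
      calc k = (w₀ : G) ^ j * (k₀ ^ j * w) := by rw [← mul_assoc, ← e3]
        _ = (w₀ : G) ^ j * ((w : G) * k₀ ^ j) := by rw [e2]
        _ = _ := by simp [mul_assoc]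
    have hwm : (w₀ ^ j : D) * w ∈ WD := WD.mul_mem (WD.zpow_mem hw₀ j) h1
    obtain ⟨hwt, -⟩ := W_commute hS h2 ((w₀ ^ j : D) * w).2 (hWI _ hwm)
    obtain ⟨-, h1'⟩ := factor_unique (t := t) hS.odd_card (y' := 1)
      (z := k₀ ^ j) (z' := k) hwt (by rw [one_mul, mul_one]) hk0j hk (by rw [one_mul, ← e])
    exact ⟨j, h1'⟩
  refine ⟨Subgroup.zpowers k₀, ?_, inferInstance, ?_⟩
  · ext k
    constructor
    · rintro ⟨i, rfl⟩
      refine ⟨D.zpow_mem hk₀.1 i, ?_⟩
      show t * k₀ ^ i * t⁻¹ = (k₀ ^ i)⁻¹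
      rw [← conj_zpow, hk₀.2, inv_zpow]
    · exact hmemK k
  · intro d hd c hc
    obtain ⟨i, rfl⟩ := hc
    show d * k₀ ^ i * d⁻¹ ∈ Subgroup.zpowers k₀
    rw [← conj_zpow]
    refine Subgroup.zpow_mem _ ?_ i
    obtain ⟨y, z, hy, hyt, hz, hyz⟩ := exists_factor hS.mul_self hS.odd_card
      (fun x hx => by rw [inv_eq hS]; exact ht x hx) hd
    have hzk : z * k₀ * z⁻¹ = k₀ := by
      obtain ⟨j, rfl⟩ := hmemK z hz
      rw [(Commute.zpow_self k₀ j).eq, mul_inv_cancel_right]
    have e : d * k₀ * d⁻¹ = y * k₀ * y⁻¹ := by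
      rw [hyz]
      calc y * z * k₀ * (y * z)⁻¹ = y * (z * k₀ * z⁻¹) * y⁻¹ := by group
        _ = _ := by rw [hzk]
    rw [e]
    refine hmemK _ ⟨D.mul_mem (D.mul_mem hy hk₀.1) (D.inv_mem hy), ?_⟩
    have hty : t * y * t⁻¹ = y := by rw [← hyt, mul_inv_cancel_right]
    calc t * (y * k₀ * y⁻¹) * t⁻¹ = (t * y * t⁻¹) * (t * k₀ * t⁻¹) * (t * y * t⁻¹)⁻¹ := by group
      _ = (y * k₀ * y⁻¹)⁻¹ := by rw [hty, hk₀.2]; group

/-- `C_D(t)` is cyclic modulo the centraliser of `K`. -/
theorem exists_generator_mod : ∃ v ∈ twoPt a t ⊓ Subgroup.centralizer {t},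
    (twoPt a t ⊓ Subgroup.centralizer {t} ⊓
        Subgroup.centralizer (invertedBy (twoPt a t) t)) ⊔ Subgroup.closure {v} =
      twoPt a t ⊓ Subgroup.centralizer {t} := by
  classical
  haveI := isNilpotent_Q hS h2
  obtain ⟨C, hC, hCcyc, hCn⟩ := exists_cyclic_K hS h2
  obtain ⟨r, s, hr, -, hs, he⟩ := exists_structure hS
  obtain ⟨E, hE, hEQ, hEc⟩ := exists_involSubgroup hS h2
  set D := twoPt a t with hD
  letI : CommGroup E :=
    { (inferInstance : Group E) with
      mul_comm := fun y z => Subtype.ext (hEc y y.2 z (hEQ z.2)) }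
  haveI : Module (ZMod 2) (Additive E) := AddCommGroup.zmodModule fun y =>
    Additive.toMul.injective (Subtype.ext (by
      show (((y.toMul : E) ^ 2 : E) : G) = 1
      rcases (hE _).1 y.toMul.2 with h | h
      · rw [SubmonoidClass.coe_pow, h, one_pow]
      · rw [SubmonoidClass.coe_pow, pow_two, h.2.2]))
  have hconjE : ∀ (d : D) (y : E), (d : G) * y * (d : G)⁻¹ ∈ E := fun d y => by
    rcases (hE _).1 y.2 with h | h
    · rw [h]
      simp [E.one_mem]
    · refine (hE _).2 (Or.inr ⟨mul_mem (mul_mem d.2.1 h.1) (inv_mem d.2.1),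
        fun h' => h.2.1 (conj_eq_one_iff.mp h'), ?_⟩)
      calc (d : G) * y * (d : G)⁻¹ * ((d : G) * y * (d : G)⁻¹)
          = (d : G) * ((y : G) * y) * (d : G)⁻¹ := by group
        _ = 1 := by rw [h.2.2, mul_one, mul_inv_cancel]
  let act : D →* Module.End (ZMod 2) (Additive E) :=
    { toFun := fun d => AddMonoidHom.toZModLinearMap 2
        { toFun := fun y => Additive.ofMul ⟨_, hconjE d y.toMul⟩
          map_zero' := congrArg Additive.ofMul (Subtype.ext (by simp))
          map_add' := fun y z => congrArg Additive.ofMul (Subtype.ext (by simp [mul_assoc])) }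
      map_one' := LinearMap.ext fun y => Additive.toMul.injective (Subtype.ext (by
        show ((1 : D) : G) * (y.toMul : E) * ((1 : D) : G)⁻¹ = (y.toMul : E)
        simp))
      map_mul' := fun d e => LinearMap.ext fun y => Additive.toMul.injective (Subtype.ext (by
        show ((d * e : D) : G) * (y.toMul : E) * ((d * e : D) : G)⁻¹ =
          (d : G) * ((e : G) * (y.toMul : E) * (e : G)⁻¹) * (d : G)⁻¹
        simp [mul_assoc])) }
  set se : Additive E := Additive.ofMul ⟨s, (hE s).2 (Or.inr hs)⟩ with hse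
  have hse0 : se ≠ 0 := fun h => hs.2.1 (congrArg Subtype.val (Additive.ofMul.injective h))
  -- the inverted elements
  have hCD : ∀ k ∈ C, k ∈ D := fun k hk => ((Set.ext_iff.1 hC k).1 hk).1
  set V := D ⊓ Subgroup.centralizer {t} with hV
  obtain ⟨v₀, hv₀, hmod⟩ := exists_mod_commutant act (C.subgroupOf D) (V.subgroupOf D)
    (fun k hk k' hk' => Subtype.ext (show (k : G) * k' = k' * k from
      congrArg (fun z : C => (z : G))
        ((IsMulCommutative.is_comm (M := C)).comm ⟨k, hk⟩ ⟨k', hk'⟩))) hse0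
    (fun y hy => by
      have hy' := ((hE _).1 y.toMul.2).resolve_left fun h =>
        hy (Additive.toMul.injective (Subtype.ext h))
      obtain ⟨k, hk, hkz⟩ := K_transitive hS hs hy'
      have hkC : k ∈ C := (Set.ext_iff.1 hC k).2 hk
      refine ⟨⟨k⁻¹, hCD _ (C.inv_mem hkC)⟩, C.inv_mem hkC, Additive.toMul.injective (Subtype.ext ?_)⟩
      show k⁻¹ * s * k⁻¹⁻¹ = _
      rw [inv_inv]
      exact hkz)
    (fun v hv k hk => by
      have := hCn _ (v⁻¹).2 k hk
      simpa [Subgroup.mem_subgroupOf] using this)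
  refine ⟨v₀, hv₀, le_antisymm (sup_le inf_le_left ?_) fun v hv => ?_⟩
  · rw [Subgroup.closure_le, Set.singleton_subset_iff]
    exact hv₀
  obtain ⟨i, hi⟩ := hmod ⟨v, hv.1⟩ hv
  set w : D := ⟨v, hv.1⟩ * (v₀ ^ i)⁻¹ with hwdef
  have hwV : (w : G) ∈ V := (V.subgroupOf D).mul_mem (x := (⟨v, hv.1⟩ : D)) hv
    ((V.subgroupOf D).inv_mem ((V.subgroupOf D).zpow_mem hv₀ i))
  have hwC : (w : G) ∈ Subgroup.centralizer (invertedBy D t) := by
    have hwt : (w : G) * t = t * w := Subgroup.mem_centralizer_singleton_iff.1 hwV.2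
    have hws : (w : G) * s = s * w := (commute_iff hS hs.1 hr he w.2).mp hwt
    refine Subgroup.mem_centralizer_iff.mpr fun k hk => ?_
    refine ((W_commute hS h2 w.2 fun u hu => ?_).2 k hk).symm
    obtain ⟨k', hk', hu'⟩ := K_transitive hS hs hu
    have hkC : k'⁻¹ ∈ C := C.inv_mem ((Set.ext_iff.1 hC k').2 hk')
    have h3 := LinearMap.congr_fun (hi ⟨k'⁻¹, hCD _ hkC⟩ hkC) se
    have h5 : (w : G) * (k'⁻¹ * s * k'⁻¹⁻¹) * (w : G)⁻¹ =
        k'⁻¹ * ((w : G) * s * (w : G)⁻¹) * k'⁻¹⁻¹ :=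
      congrArg Subtype.val (Additive.ofMul.injective h3)
    rw [inv_inv, hu', hws, mul_inv_cancel_right, hu'] at h5
    exact mul_inv_eq_iff_eq_mul.1 h5
  have hv' : (w : G) * ((v₀ : G) ^ i) = v := by
    rw [hwdef, Subgroup.coe_mul, Subgroup.coe_inv, Subgroup.coe_zpow, inv_mul_cancel_right]
  have hw1 : (w : G) ∈ D ⊓ Subgroup.centralizer {t} ⊓ Subgroup.centralizer (invertedBy D t) :=
    Subgroup.mem_inf.2 ⟨hwV, hwC⟩
  have hv1 : (v₀ : G) ∈ Subgroup.closure ({(v₀ : G)} : Set G) :=
    Subgroup.subset_closure (Set.mem_singleton _)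
  have hsum := Subgroup.mul_mem_sup hw1 (Subgroup.zpow_mem _ hv1 i)
  rw [hv'] at hsum
  exact hsum

/-- A non-abelian Sylow 2-subgroup of `Q` is a Suzuki 2-group. -/
theorem abelian_or_suzuki (S : Sylow 2 Q) :
    IsMulCommutative (S : Subgroup Q) ∨ IsSuzukiTwoGroup (S : Subgroup Q) := by
  classical
  haveI := isNilpotent_Q hS h2
  haveI : Fact (Nat.Prime 2) := ⟨Nat.prime_two⟩
  by_cases hc : ∀ x y : (S : Subgroup Q), x * y = y * x
  · exact Or.inl ⟨⟨hc⟩⟩
  push Not at hc
  obtain ⟨C, hC, hCcyc, hCn⟩ := exists_cyclic_K hS h2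
  haveI hSn : (S : Subgroup Q).Normal :=
    ((Group.isNilpotent_of_finite_tfae (G := ↥Q)).out 0 3 rfl rfl :
      Group.IsNilpotent ↥Q ↔ ∀ (p : ℕ) (_hp : Fact p.Prime) (P : Sylow p ↥Q),
        (P : Subgroup ↥Q).Normal).1 (isNilpotent_Q hS h2) 2 ⟨Nat.prime_two⟩ S
  have hinS : ∀ x : Q, (∃ n, x ^ 2 ^ n = 1) → x ∈ (S : Subgroup Q) := by
    rintro x ⟨n, hx⟩
    have hz : IsPGroup 2 (Subgroup.zpowers x) := by
      rintro ⟨y, i, rfl⟩
      refine ⟨n, Subtype.ext ?_⟩
      show (x ^ i) ^ 2 ^ n = 1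
      rw [← zpow_natCast, ← zpow_mul, mul_comm, zpow_mul, zpow_natCast, hx, one_zpow]
    obtain ⟨P, hP⟩ := hz.exists_le_sylow
    haveI := Sylow.unique_of_normal S hSn
    rw [Subsingleton.elim S P]
    exact hP (Subgroup.mem_zpowers x)
  have hCD : ∀ k ∈ C, k ∈ twoPt a t := fun k hk => ((Set.ext_iff.1 hC k).1 hk).1
  have hconj : ∀ (k : C) (x : (S : Subgroup Q)), ∃ h : (k : G) * x * (k : G)⁻¹ ∈ Q,
      (⟨_, h⟩ : Q) ∈ (S : Subgroup Q) := fun k x => by
    refine ⟨hS.conj_mem k (hCD k k.2).1 _ (x : Q).2, hinS _ ?_⟩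
    obtain ⟨n, hn⟩ := S.2 x
    refine ⟨n, Subtype.ext ?_⟩
    show ((k : G) * x * (k : G)⁻¹) ^ 2 ^ n = 1
    have h1 : ((x : Q) : G) ^ 2 ^ n = 1 := by
      have := congrArg (fun z : (S : Subgroup Q) => ((z : Q) : G)) hn
      simpa using this
    rw [conj_pow, h1, mul_one, mul_inv_cancel]
  let f : C →* MulAut (S : Subgroup Q) :=
    { toFun := fun k =>
        { toFun := fun x => ⟨_, (hconj k x).2⟩
          invFun := fun x => ⟨_, (hconj k⁻¹ x).2⟩
          left_inv := fun x => Subtype.ext (Subtype.ext (by simp [mul_assoc]))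
          right_inv := fun x => Subtype.ext (Subtype.ext (by simp [mul_assoc]))
          map_mul' := fun x y => Subtype.ext (Subtype.ext (by simp [mul_assoc])) }
      map_one' := MulEquiv.ext fun x => Subtype.ext (Subtype.ext (by simp))
      map_mul' := fun k l => MulEquiv.ext fun x => Subtype.ext (Subtype.ext (by simp [mul_assoc])) }
  have hmemI : ∀ x : (S : Subgroup Q), x ≠ 1 → x * x = 1 →
      ((x : Q) : G) ∈ involutionsIn (stabilizer G a : Set G) := fun x hx hx2 =>
    ⟨hS.le (x : Q).2, fun h => hx (Subtype.ext (Subtype.ext h)),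
      congrArg (fun z : (S : Subgroup Q) => ((z : Q) : G)) hx2⟩
  -- two involutions
  have htwo : ∃ x y : (S : Subgroup Q), x ≠ y ∧ x ≠ 1 ∧ x * x = 1 ∧ y ≠ 1 ∧ y * y = 1 := by
    obtain ⟨u, v, hu1, hv1, huv, hu, hv, hcomm⟩ := h2
    obtain ⟨p, hp, -⟩ := fix_unique hS hu1 hu
    obtain ⟨g, hg⟩ := exists_move hS p a
    have hvp : v • p = p := by
      refine fix_eq hS hu1 hu ?_ hp
      rw [smul_smul, hcomm, mul_smul, hp]
    have mk : ∀ w : G, w ≠ 1 → w * w = 1 → w • p = p → ∃ x : (S : Subgroup Q),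
        x ≠ 1 ∧ x * x = 1 ∧ ((x : Q) : G) = g * w * g⁻¹ := by
      intro w hw1 hw hwp
      have h1 : (g * w * g⁻¹) • a = a := by
        rw [mul_smul, mul_smul, inv_smul_eq_iff.mpr hg.symm, hwp, hg]
      have h2' : g * w * g⁻¹ * (g * w * g⁻¹) = 1 := by
        calc g * w * g⁻¹ * (g * w * g⁻¹) = g * (w * w) * g⁻¹ := by group
          _ = 1 := by rw [hw, mul_one, mul_inv_cancel]
      refine ⟨⟨⟨_, mem_Q_of_invol hS h1 h2'⟩, hinS _ ⟨1, Subtype.ext ?_⟩⟩, fun h => hw1
        (conj_eq_one_iff.mp (congrArg (fun z : (S : Subgroup Q) => ((z : Q) : G)) h)),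
        Subtype.ext (Subtype.ext h2'), rfl⟩
      show (g * w * g⁻¹) ^ 2 ^ 1 = 1
      rw [pow_one, pow_two]
      exact h2'
    obtain ⟨x, hx1, hx, hxe⟩ := mk u hu1 hu hp
    obtain ⟨y, hy1, hy, hye⟩ := mk v hv1 hv hvp
    refine ⟨x, y, fun h => huv ?_, hx1, hx, hy1, hy⟩
    rw [h, hye] at hxe
    exact mul_left_cancel (mul_right_cancel hxe.symm)
  refine Or.inr ⟨inferInstance, S.2, hc, htwo, f.range,
    isCyclic_of_surjective f.rangeRestrict f.rangeRestrict_surjective, fun x y hx hxx hy hyy => ?_⟩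
  obtain ⟨k, hk, hkz⟩ := K_transitive hS (hmemI x hx hxx) (hmemI y hy hyy)
  have hkC : k⁻¹ ∈ C := C.inv_mem ((Set.ext_iff.1 hC k).2 hk)
  refine ⟨⟨f ⟨k⁻¹, hkC⟩, ⟨_, rfl⟩⟩, Subtype.ext (Subtype.ext ?_), ?_⟩
  · show k⁻¹ * ((x : Q) : G) * k⁻¹⁻¹ = _
    rw [inv_inv]
    exact hkz
  · rintro ⟨_, ⟨l, rfl⟩⟩ hl
    refine Subtype.ext (congrArg f (Subtype.ext ?_))
    show (l : G) = k⁻¹
    by_contra hne
    have h1 : (l : G) * ((x : Q) : G) * (l : G)⁻¹ = k⁻¹ * ((x : Q) : G) * k := by
      rw [hkz]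
      exact congrArg (fun z : (S : Subgroup Q) => ((z : Q) : G)) hl
    have hlk : k * (l : G) ∈ invertedBy (twoPt a t) t :=
      (Set.ext_iff.1 hC _).1 (C.mul_mem ((Set.ext_iff.1 hC k).2 hk) l.2)
    have hne1 : k * (l : G) ≠ 1 := fun h => hne (eq_inv_of_mul_eq_one_right h)
    refine hx (Subtype.ext (Subtype.ext (fpf_of_inverted hS hlk hne1 (q := ((x : Q) : G))
      (x : Q).2 ?_)))
    calc ((x : Q) : G) * (k * (l : G))
        = k * (k⁻¹ * ((x : Q) : G) * k) * (l : G) := by group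
      _ = k * ((l : G) * ((x : Q) : G) * (l : G)⁻¹) * (l : G) := by rw [h1]
      _ = k * (l : G) * ((x : Q) : G) := by group

end Cfsg.Agent.Lib.RankOne
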